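import Cfsg.Agent.Lib.BlockP.Defect

/-!
# Consequences of the numeric min-max theorem

Modulo the local ideal, `ω_χ(e_{B'})`, for `χ` in a block of the same defect `d` as `B'`, is the sum
over the `p`-regular classes of defect exactly `d`.
-/

set_option autoImplicit false

namespace Cfsg.Agent.Lib.BlockP.MinMaxNum

open Cfsg Module
open Cfsg.Agent.Lib.Blocks.Local
open Cfsg.Agent.Lib.Blocks.Central
open Cfsg.Agent.Lib.Blocks.Weak
open Cfsg.Agent.Lib.Blocks.Eigen
open Cfsg.Agent.Lib.BlockP.Stable
open Cfsg.Agent.Lib.BlockP.Defect
open scoped ComplexConjugate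

universe u

variable {G : Type u} [Group G] [Fintype G]

open Classical in
/-- The `p`-regular classes of defect `d`. -/
noncomputable def regClasses [Fintype (ConjClasses G)] (p d : ℕ) : Finset (ConjClasses G) :=
  Finset.univ.filter (fun C => ¬ p ∣ orderOf C.out ∧
    (Nat.card (Subgroup.centralizer ({C.out} : Set G))).factorization p = d)

variable [Fintype (IrrCharacter G)] [Fintype (ConjClasses G)]

/-- The reduction of `ω_χ(e_{B'})` to the classes of defect `d`. -/
theorem omegaHom_idem_sub_sum_mem {M : Ideal AlgInt} {p : ℕ} (hM : IsPModular p M)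
    {B B' : Set (IrrCharacter G)} (hB : IsPBlock M B) (hB' : IsPBlock M B')
    {χ : IrrCharacter G} (hχ : χ ∈ B) {d : ℕ} (hd : blockDefect p B = d)
    (hd' : blockDefect p B' = d) :
    MemLocalIdeal M (omegaHom χ (idem B') - ∑ C ∈ regClasses (G := G) p d,
      blockCoeff B' C.out * centralChar (χ : G → ℂ) C.out) := by
  classical
  haveI hprime := isPrime_of_pModular hM
  rw [omegaHom_eq_sum_classes]
  simp only [coeff_idem]
  rw [← Finset.sum_filter_add_sum_filter_not Finset.univ (fun C => C ∈ regClasses (G := G) p d)]
  have h1 : (Finset.univ.filter (fun C => C ∈ regClasses (G := G) p d)) = regClasses p d := by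
    ext C
    simp
  rw [h1, add_sub_cancel_left]
  apply memLocalIdeal_sum
  intro C hC
  have hC' : C ∉ regClasses (G := G) p d := (Finset.mem_filter.mp hC).2
  by_cases hreg : p ∣ orderOf C.out
  · rw [blockCoeff_eq_zero hM hB' hreg, zero_mul]
    exact memLocalIdeal_zero
  have hdef : (Nat.card (Subgroup.centralizer ({C.out} : Set G))).factorization p ≠ d := by
    intro h
    exact hC' (Finset.mem_filter.mpr ⟨Finset.mem_univ _, hreg, h⟩)
  rcases lt_or_gt_of_ne hdef with hlt | hgt
  · -- smaller class defect: `ω` vanishes
    apply memLocalIdeal_mul_left (memLocalRing_blockCoeff hB' _)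
    by_contra hcon
    have := blockDefect_le_factorization_centralizer hM hB hχ hcon
    omega
  · -- larger class defect: the coefficient vanishes
    apply memLocalIdeal_mul_right _ (memLocalRing_of_isIntegral (isIntegral_centralChar χ _))
    by_contra hcon
    have := factorization_centralizer_le_blockDefect hM hB' hcon
    omega

end Cfsg.Agent.Lib.BlockP.MinMaxNum
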