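import Mathlib
import Cfsg.Agent.Lib.OddChar.GaloisConj
import Cfsg.Agent.Lib.BlockP.Defect
import Cfsg.Agent.Lib.Blocks.Central
import Cfsg.Agent.Lib.Blocks.Weak
import Cfsg.Agent.Lib.BlockT.Inflate2
import Cfsg.Agent.Lib.Transfer.Basic
import Cfsg.Agent.Lib.BlockH.Basic
import Cfsg.Agent.Lib.Char.Degree

/-!
# `p`-conjugate characters

For `k` in `Γ = {k ∈ (ℤ/|G|)ˣ : k ≡ 1 mod |G|_{p'}}` we have the action `g ↦ g ^ k` on `G` and
`ψ ↦ ψ (· ^ k)` on `Irr G`. The average `A χ g` of `χ (g ^ k)` over `k ∈ Γ` satisfies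
`(p - 1) A χ g` is an algebraic integer.
-/

set_option autoImplicit false

namespace Cfsg.Agent.Lib.BlockP.PConj

open Cfsg Module MulAction
open Cfsg.Agent.Lib.OddChar.GaloisConj
open scoped ComplexConjugate

/-- Orbit sum. -/
theorem sum_smul_eq {H X : Type*} [Group H] [Fintype H] [MulAction H X] (x : X)
    [Fintype (orbit H x)] (f : X → ℂ) :
    ∑ h : H, f (h • x) = (Nat.card (stabilizer H x) : ℂ) * ∑ z : orbit H x, f z := by
  classical
  let π : H → orbit H x := fun h => ⟨h • x, mem_orbit x h⟩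
  have h1 : ∑ h : H, f (h • x) = ∑ z : orbit H x, ∑ h ∈ Finset.univ.filter (fun h => π h = z),
      f (h • x) := (Finset.sum_fiberwise _ π _).symm
  rw [h1, Finset.mul_sum]
  refine Finset.sum_congr rfl fun z _ => ?_
  have h2 : ∑ h ∈ Finset.univ.filter (fun h => π h = z), f (h • x) =
      ∑ h ∈ Finset.univ.filter (fun h => π h = z), f z :=
    Finset.sum_congr rfl fun h hh => by
      have := (Finset.mem_filter.1 hh).2
      rw [← this]
  rw [h2, Finset.sum_const, nsmul_eq_mul]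
  congr 2
  obtain ⟨z, h₀, rfl⟩ := z
  rw [← Fintype.card_subtype, ← Nat.card_eq_fintype_card]
  refine Nat.card_congr ⟨fun h => ⟨h₀⁻¹ * h.1, ?_⟩, fun s => ⟨h₀ * s.1, ?_⟩, ?_, ?_⟩
  · have := h.2
    have h3 : h.1 • x = (fun m => m • x) h₀ := congrArg Subtype.val this
    rw [mem_stabilizer_iff, mul_smul, h3, inv_smul_smul]
  · apply Subtype.ext
    show (h₀ * s.1) • x = (fun m => m • x) h₀
    rw [mul_smul, mem_stabilizer_iff.1 s.2]
  · intro h; simp
  · intro h; simp

variable {G : Type*} [Group G] [Fintype G]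

/-- The exponent attached to a unit. -/
noncomputable def ex (k : (ZMod (Nat.card G))ˣ) : ℕ := (k : ZMod (Nat.card G)).val

theorem ex_coprime (k : (ZMod (Nat.card G))ˣ) : (ex k).Coprime (Nat.card G) :=
  ZMod.val_coe_unit_coprime k

theorem pow_ex_mul (g : G) (k l : (ZMod (Nat.card G))ˣ) :
    g ^ ex (k * l) = (g ^ ex l) ^ ex k := by
  unfold ex
  rw [Units.val_mul, ZMod.val_mul, pow_mod_natCard, ← pow_mul, mul_comm]

theorem pow_ex_one (g : G) : g ^ ex (1 : (ZMod (Nat.card G))ˣ) = g := by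
  unfold ex
  rw [Units.val_one, ZMod.val_one_eq_one_mod, pow_mod_natCard, pow_one]

/-- The power action on elements. -/
noncomputable instance actG : MulAction (ZMod (Nat.card G))ˣ G where
  smul k g := g ^ ex k
  one_smul := pow_ex_one
  mul_smul k l g := pow_ex_mul g k l

theorem smul_def (k : (ZMod (Nat.card G))ˣ) (g : G) : k • g = g ^ ex k := rfl

/-- The power action on characters. -/
noncomputable instance actIrr : MulAction (ZMod (Nat.card G))ˣ (IrrCharacter G) where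
  smul k ψ := ⟨fun g => (ψ : G → ℂ) (g ^ ex k), isIrrCharacter_pow (ex_coprime k) ψ.2⟩
  one_smul ψ := by
    apply Subtype.ext
    funext g
    show (ψ : G → ℂ) (g ^ ex (1 : (ZMod (Nat.card G))ˣ)) = (ψ : G → ℂ) g
    rw [pow_ex_one]
  mul_smul k l ψ := by
    apply Subtype.ext
    funext g
    show (ψ : G → ℂ) (g ^ ex (k * l)) = (ψ : G → ℂ) ((g ^ ex k) ^ ex l)
    rw [mul_comm k l, pow_ex_mul]

theorem smul_apply (k : (ZMod (Nat.card G))ˣ) (ψ : IrrCharacter G) (g : G) :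
    ((k • ψ : IrrCharacter G) : G → ℂ) g = (ψ : G → ℂ) (k • g) := rfl

variable (G) in
/-- The subgroup `k ≡ 1` modulo the `p'`-part of the group order. -/
noncomputable def Gam (p : ℕ) : Subgroup (ZMod (Nat.card G))ˣ :=
  (ZMod.unitsMap (n := ordCompl[p] (Nat.card G)) (m := Nat.card G) (Nat.ordCompl_dvd _ _)).ker

theorem mem_Gam_iff (p : ℕ) (k : (ZMod (Nat.card G))ˣ) :
    k ∈ Gam G p ↔ ex k ≡ 1 [MOD ordCompl[p] (Nat.card G)] := by
  rw [Gam, MonoidHom.mem_ker, Units.ext_iff, ZMod.unitsMap_val, Units.val_one, ← ZMod.natCast_eq_natCast_iff,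
    Nat.cast_one, ex, ZMod.natCast_val]

variable {p : ℕ}

/-- A `p`-regular element is fixed by `Γ`. -/
theorem smul_eq_of_regular (hp : p.Prime) {k : (ZMod (Nat.card G))ˣ} (hk : k ∈ Gam G p) {y : G}
    (hy : ¬ p ∣ orderOf y) : k • y = y := by
  rw [smul_def]
  have h1 : orderOf y ∣ ordCompl[p] (Nat.card G) := by
    have h2 : orderOf y ∣ p ^ (Nat.card G).factorization p * ordCompl[p] (Nat.card G) := by
      rw [Nat.ordProj_mul_ordCompl_eq_self]
      exact orderOf_dvd_natCard y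
    have hc : Nat.Coprime (orderOf y) (p ^ (Nat.card G).factorization p) :=
      Nat.Coprime.pow_right _ ((hp.coprime_iff_not_dvd).2 hy).symm
    exact hc.dvd_of_dvd_mul_left h2
  have h3 : ex k ≡ 1 [MOD orderOf y] := ((mem_Gam_iff p k).1 hk).of_dvd h1
  have h4 := (pow_eq_pow_iff_modEq (x := y) (n := ex k) (m := 1)).2 h3
  rwa [pow_one] at h4

/-- Chinese remainder lifting. -/
theorem exists_mem_Gam (hp : p.Prime) (hpn : p ∣ Nat.card G) {j : ℕ} (hj : ¬ p ∣ j) :
    ∃ k ∈ Gam G p, ex k ≡ j [MOD p ^ (Nat.card G).factorization p] := by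
  set n := Nat.card G with hn
  set a := n.factorization p with ha
  set g' := ordCompl[p] n with hg'
  have hn0 : n ≠ 0 := Nat.card_pos.ne'
  have hnfac : p ^ a * g' = n := Nat.ordProj_mul_ordCompl_eq_self n p
  have ha1 : 1 ≤ a := (hp.dvd_iff_one_le_factorization hn0).1 hpn
  have hcop : Nat.Coprime (p ^ a) g' :=
    Nat.Coprime.pow_left _ ((hp.coprime_iff_not_dvd).2 (Nat.not_dvd_ordCompl hp hn0))
  let c := Nat.chineseRemainder hcop j 1
  have hc1 : (c : ℕ) ≡ j [MOD p ^ a] := c.2.1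
  have hc2 : (c : ℕ) ≡ 1 [MOD g'] := c.2.2
  have hcp : Nat.Coprime (c : ℕ) p := by
    rw [Nat.coprime_comm, hp.coprime_iff_not_dvd]
    intro h
    apply hj
    have h1 : (c : ℕ) ≡ j [MOD p] := hc1.of_dvd (dvd_pow_self p (by omega))
    exact (h1.dvd_iff (dvd_refl p)).1 h
  have hcg : Nat.Coprime (c : ℕ) g' := by
    have h1 := hc2.gcd_eq
    rw [Nat.coprime_iff_gcd_eq_one, h1]
    simp
  have hcn : Nat.Coprime (c : ℕ) n := by
    rw [← hnfac]
    exact Nat.Coprime.mul_right (Nat.Coprime.pow_right _ hcp) hcg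
  let k : (ZMod n)ˣ := ZMod.unitOfCoprime c hcn
  have hex : ex k = (c : ℕ) % n := by
    show ((k : ZMod n)).val = _
    rw [ZMod.coe_unitOfCoprime, ZMod.val_natCast]
  have hmod : ex k ≡ c [MOD n] := by
    rw [hex]
    exact Nat.mod_modEq _ _
  refine ⟨k, ?_, ?_⟩
  · rw [mem_Gam_iff]
    exact (hmod.of_dvd (Dvd.intro_left _ hnfac)).trans hc2
  · exact (hmod.of_dvd (Dvd.intro _ hnfac)).trans hc1

/-- The `Γ`-orbit of a `p`-element. -/
theorem orbit_eq (hp : p.Prime) {u : G} {i : ℕ} (hi : 1 ≤ i) (hu : orderOf u = p ^ i) :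
    (orbit (Gam G p) u : Set G) =
      (Subgroup.zpowers u : Set G) \ (Subgroup.zpowers (u ^ p) : Set G) := by
  have hpn : p ∣ Nat.card G := by
    have h1 : p ∣ orderOf u := by
      rw [hu]; exact dvd_pow_self p (by omega)
    exact h1.trans (orderOf_dvd_natCard u)
  have hcard : orderOf (u ^ p) = p ^ (i - 1) := by
    rw [orderOf_pow' u hp.ne_zero, hu, Nat.gcd_eq_right (dvd_pow_self p (by omega))]
    obtain ⟨j, rfl⟩ : ∃ j, i = j + 1 := ⟨i - 1, by omega⟩
    rw [pow_succ, Nat.mul_div_cancel _ hp.pos]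
    simp
  ext b
  constructor
  · rintro ⟨⟨k, hk⟩, rfl⟩
    have hb : (⟨k, hk⟩ : Gam G p) • u = u ^ ex k := rfl
    have hcopk : Nat.Coprime (ex k) (orderOf u) :=
      (ex_coprime k).coprime_dvd_right (orderOf_dvd_natCard u)
    change u ^ ex k ∈ _
    refine ⟨Subgroup.npow_mem_zpowers u _, ?_⟩
    intro hm
    have h1 : Subgroup.zpowers (u ^ ex k) ≤ Subgroup.zpowers (u ^ p) :=
      Subgroup.zpowers_le.2 hm
    have h2 := Subgroup.card_le_of_le h1
    rw [Nat.card_zpowers, Nat.card_zpowers, Nat.Coprime.orderOf_pow hcopk.symm, hcard, hu] at h2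
    have h3 : p ^ i ≤ p ^ (i - 1) := h2
    have h4 := (Nat.pow_le_pow_iff_right hp.one_lt).1 h3
    omega
  · rintro ⟨hb1, hb2⟩
    obtain ⟨j, rfl⟩ := mem_powers_iff_mem_zpowers.2 hb1
    have hj : ¬ p ∣ j := by
      rintro ⟨c, rfl⟩
      apply hb2
      show u ^ (p * c) ∈ _
      rw [pow_mul]
      exact Subgroup.npow_mem_zpowers _ _
    obtain ⟨k, hk, hkj⟩ := exists_mem_Gam (G := G) hp hpn hj
    have h1 : p ^ i ∣ Nat.card G := by
      rw [← hu]; exact orderOf_dvd_natCard u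
    have h2 : i ≤ (Nat.card G).factorization p :=
      (hp.pow_dvd_iff_le_factorization Nat.card_pos.ne').1 h1
    have h3 : orderOf u ∣ p ^ (Nat.card G).factorization p := by
      rw [hu]; exact pow_dvd_pow p h2
    refine ⟨⟨k, hk⟩, ?_⟩
    exact (pow_eq_pow_iff_modEq (x := u)).2 (hkj.of_dvd h3)

instance neZeroCard : NeZero (Nat.card G) := ⟨Nat.card_pos.ne'⟩

noncomputable instance fintypeGam (p : ℕ) : Fintype (Gam G p) := Fintype.ofFinite _

/-- The average over `Γ`. -/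
noncomputable def avg (p : ℕ) (χ : G → ℂ) (g : G) : ℂ :=
  (Nat.card (Gam G p) : ℂ)⁻¹ * ∑ k : Gam G p, χ ((k : (ZMod (Nat.card G))ˣ) • g)

theorem card_Gam_ne_zero (p : ℕ) : (Nat.card (Gam G p) : ℂ) ≠ 0 :=
  Nat.cast_ne_zero.2 Nat.card_pos.ne'

theorem avg_of_regular (hp : p.Prime) (χ : G → ℂ) {y : G} (hy : ¬ p ∣ orderOf y) :
    avg p χ y = χ y := by
  classical
  unfold avg
  rw [Finset.sum_congr rfl fun k _ => by rw [smul_eq_of_regular hp k.2 hy], Finset.sum_const,
    Finset.card_univ, ← Nat.card_eq_fintype_card, nsmul_eq_mul, ← mul_assoc,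
    inv_mul_cancel₀ (card_Gam_ne_zero p), one_mul]

/-- The main formula for the average. -/
theorem avg_formula (hp : p.Prime) (χ : G → ℂ) {y u : G} (hy : ¬ p ∣ orderOf y) (hc : Commute y u)
    {i : ℕ} (hi : 1 ≤ i) (hu : orderOf u = p ^ i) [Fintype (Subgroup.zpowers u)]
    [Fintype (Subgroup.zpowers (u ^ p))] :
    ((p : ℂ) - 1) * avg p χ (y * u) =
      (p : ℂ) * ((Nat.card (Subgroup.zpowers u) : ℂ)⁻¹ * ∑ b : Subgroup.zpowers u, χ (y * b)) -
      (Nat.card (Subgroup.zpowers (u ^ p)) : ℂ)⁻¹ * ∑ b : Subgroup.zpowers (u ^ p), χ (y * b) := by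
  classical
  obtain ⟨j, rfl⟩ : ∃ j, i = j + 1 := ⟨i - 1, by omega⟩
  have hcard1 : Nat.card (Subgroup.zpowers u) = p ^ (j + 1) := by rw [Nat.card_zpowers, hu]
  have hcard2 : Nat.card (Subgroup.zpowers (u ^ p)) = p ^ j := by
    rw [Nat.card_zpowers, orderOf_pow' u hp.ne_zero, hu, Nat.gcd_eq_right (dvd_pow_self p (by omega)),
      pow_succ, Nat.mul_div_cancel _ hp.pos]
  have hp0 : (p : ℂ) ≠ 0 := Nat.cast_ne_zero.2 hp.ne_zero
  have hp1 : (p : ℂ) - 1 ≠ 0 := by
    intro h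
    have h1 : (p : ℂ) = 1 := sub_eq_zero.1 h
    have h2 : p = 1 := by exact_mod_cast h1
    exact hp.one_lt.ne' h2
  -- orbit of `u`
  letI : Fintype (orbit (Gam G p) u) := Fintype.ofFinite _
  have hO := orbit_eq (G := G) hp (i := j + 1) (by omega) hu
  have hsum1 : ∑ k : Gam G p, χ ((k : (ZMod (Nat.card G))ˣ) • (y * u)) =
      ∑ k : Gam G p, (fun z => χ (y * z)) (k • u) := by
    refine Finset.sum_congr rfl fun k _ => ?_
    show χ ((y * u) ^ ex (k : (ZMod (Nat.card G))ˣ)) = χ (y * u ^ ex (k : (ZMod (Nat.card G))ˣ))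
    rw [hc.mul_pow]
    congr 2
    exact smul_eq_of_regular hp k.2 hy
  -- sums over the orbit
  have hsplit : ∑ b : Subgroup.zpowers u, χ (y * b) =
      ∑ z : orbit (Gam G p) u, χ (y * z) + ∑ b : Subgroup.zpowers (u ^ p), χ (y * b) := by
    have h1 : ∑ b ∈ Finset.univ.filter (fun a : G => a ∈ Subgroup.zpowers u), χ (y * b) =
        ∑ b : Subgroup.zpowers u, χ (y * b) := Finset.sum_subtype _ (by simp) _
    have h2 : ∑ b ∈ Finset.univ.filter (fun a : G => a ∈ Subgroup.zpowers (u ^ p)), χ (y * b) =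
        ∑ b : Subgroup.zpowers (u ^ p), χ (y * b) := Finset.sum_subtype _ (by simp) _
    have h3 : ∑ b ∈ Finset.univ.filter (fun a : G => a ∈ orbit (Gam G p) u), χ (y * b) =
        ∑ b : orbit (Gam G p) u, χ (y * b) := Finset.sum_subtype _ (by simp) _
    rw [← h1, ← h2, ← h3, ← Finset.sum_union]
    · congr 1
      ext b
      have hle : Subgroup.zpowers (u ^ p) ≤ Subgroup.zpowers u :=
        Subgroup.zpowers_le.2 (Subgroup.npow_mem_zpowers _ _)
      have h4 : b ∈ orbit (Gam G p) u ↔ b ∈ Subgroup.zpowers u ∧ b ∉ Subgroup.zpowers (u ^ p) :=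
        Set.ext_iff.1 hO b
      simp only [Finset.mem_filter, Finset.mem_univ, true_and, Finset.mem_union, h4]
      constructor
      · intro h
        by_cases h5 : b ∈ Subgroup.zpowers (u ^ p)
        · exact Or.inr h5
        · exact Or.inl ⟨h, h5⟩
      · rintro (h | h)
        · exact h.1
        · exact hle h
    · rw [Finset.disjoint_left]
      intro b hb1 hb2
      have h4 : b ∈ orbit (Gam G p) u := (Finset.mem_filter.1 hb1).2
      have h5 : b ∈ Subgroup.zpowers u ∧ b ∉ Subgroup.zpowers (u ^ p) := Set.ext_iff.1 hO b |>.1 h4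
      exact h5.2 (Finset.mem_filter.1 hb2).2
  -- cardinalities
  have hcardO : ((Nat.card (orbit (Gam G p) u) : ℕ) : ℂ) = (p : ℂ) ^ j * ((p : ℂ) - 1) := by
    have h6 : Nat.card (orbit (Gam G p) u) + Nat.card (Subgroup.zpowers (u ^ p)) =
        Nat.card (Subgroup.zpowers u) := by
      simp only [Nat.card_eq_fintype_card, ← Fintype.card_subtype_compl]
      rw [← Fintype.card_sum]
      refine Fintype.card_congr ?_
      refine ⟨fun x => Sum.elim (fun a => ⟨a.1, (Set.ext_iff.1 hO a.1 |>.1 a.2).1⟩)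
        (fun a => ⟨a.1, (Subgroup.zpowers_le.2 (Subgroup.npow_mem_zpowers _ _) : Subgroup.zpowers (u ^ p) ≤ Subgroup.zpowers u) a.2⟩) x,
        fun b => if h : (b : G) ∈ Subgroup.zpowers (u ^ p) then Sum.inr ⟨b.1, h⟩ else
          Sum.inl ⟨b.1, Set.ext_iff.1 hO b.1 |>.2 ⟨b.2, h⟩⟩, ?_, ?_⟩
      · rintro (a | a)
        · have h5 : a.1 ∉ Subgroup.zpowers (u ^ p) := (Set.ext_iff.1 hO a.1 |>.1 a.2).2
          simp [h5]
        · simp [a.2]
      · intro b
        by_cases h : (b : G) ∈ Subgroup.zpowers (u ^ p) <;> simp [h]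
    rw [hcard1, hcard2] at h6
    have h7 : ((Nat.card (orbit (Gam G p) u) : ℕ) : ℂ) + (p : ℂ) ^ j = (p : ℂ) ^ (j + 1) := by
      exact_mod_cast h6
    rw [pow_succ] at h7
    linear_combination h7
  have hstab : ((Nat.card (Gam G p) : ℕ) : ℂ) =
      ((Nat.card (orbit (Gam G p) u) : ℕ) : ℂ) * (Nat.card (stabilizer (Gam G p) u) : ℂ) := by
    have := card_orbit_mul_card_stabilizer_eq_card_group (Gam G p) u
    simp only [← Nat.card_eq_fintype_card] at this
    rw [← this, Nat.cast_mul]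
  have hS0 : (Nat.card (stabilizer (Gam G p) u) : ℂ) ≠ 0 := Nat.cast_ne_zero.2 Nat.card_pos.ne'
  unfold avg
  rw [hsum1, sum_smul_eq u (fun z => χ (y * z)), hsplit, hcard1, hcard2, hstab, hcardO]
  have hpj : (p : ℂ) ^ j ≠ 0 := pow_ne_zero _ hp0
  push_cast
  field_simp
  ring

/-- The case of an element `u` of order `p`. -/
theorem avg_formula_prime (hp : p.Prime) (χ : G → ℂ) {y u : G} (hy : ¬ p ∣ orderOf y)
    (hc : Commute y u) (hu : orderOf u = p) [Fintype (Subgroup.zpowers u)] :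
    ((p : ℂ) - 1) * avg p χ (y * u) =
      (p : ℂ) * ((Nat.card (Subgroup.zpowers u) : ℂ)⁻¹ * ∑ b : Subgroup.zpowers u, χ (y * b)) -
      χ y := by
  classical
  letI : Fintype (Subgroup.zpowers (u ^ p)) := Fintype.ofFinite _
  rw [avg_formula hp χ hy hc (i := 1) le_rfl (by rw [hu, pow_one])]
  congr 1
  have hup : u ^ p = 1 := by rw [← hu]; exact pow_orderOf_eq_one u
  have h1 : ∀ b : Subgroup.zpowers (u ^ p), (b : G) = 1 := by
    intro b
    have h0 : (b : G) ∈ Subgroup.zpowers (1 : G) := by rw [← hup]; exact b.2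
    rw [Subgroup.zpowers_one_eq_bot, Subgroup.mem_bot] at h0
    exact h0
  have h2 : ∑ b : Subgroup.zpowers (u ^ p), χ (y * b) =
      (Nat.card (Subgroup.zpowers (u ^ p)) : ℂ) * χ y := by
    rw [Finset.sum_congr rfl fun b _ => by rw [h1 b, mul_one], Finset.sum_const,
      Finset.card_univ, ← Nat.card_eq_fintype_card, nsmul_eq_mul]
  rw [h2, ← mul_assoc, inv_mul_cancel₀ (Nat.cast_ne_zero.2 Nat.card_pos.ne'), one_mul]

/-- Integrality. -/
theorem isIntegral_avg_mul (hp : p.Prime) {χ : G → ℂ} (hχ : IsCharacter G χ) (g : G) :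
    IsIntegral ℤ (((p : ℂ) - 1) * avg p χ g) := by
  classical
  haveI : Fact p.Prime := ⟨hp⟩
  have hpint : IsIntegral ℤ ((p : ℂ) - 1) :=
    (isIntegral_natCast p : IsIntegral ℤ (p : ℂ)).sub isIntegral_one
  have hχint : ∀ x : G, IsIntegral ℤ (χ x) := by
    intro x
    obtain ⟨n, ρ, rfl⟩ := hχ
    exact Cfsg.Agent.Lib.Char.Eigen.character_isIntegral ρ x
  obtain ⟨a, b, rfl, hab, -, -, ⟨k, hk⟩, hb⟩ :=
    Cfsg.Agent.Lib.Transfer.Basic.exists_pPart_decomp (p := p) g
  have hb' : ¬ p ∣ orderOf b := (hp.coprime_iff_not_dvd).1 hb.symm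
  by_cases ha : a = 1
  · subst ha
    rw [one_mul, avg_of_regular hp χ hb']
    exact hpint.mul (hχint b)
  · obtain ⟨i, -, hi⟩ := (Nat.dvd_prime_pow hp).1 (orderOf_dvd_of_pow_eq_one hk)
    have hi1 : 1 ≤ i := by
      rcases Nat.eq_zero_or_pos i with h | h
      · subst h
        rw [pow_zero, orderOf_eq_one_iff] at hi
        exact absurd hi ha
      · exact h
    letI : Fintype (Subgroup.zpowers a) := Fintype.ofFinite _
    letI : Fintype (Subgroup.zpowers (a ^ p)) := Fintype.ofFinite _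
    rw [hab.eq, avg_formula hp χ hb' hab.symm hi1 hi]
    refine IsIntegral.sub ((isIntegral_natCast p : IsIntegral ℤ (p : ℂ)).mul ?_) ?_
    · refine Cfsg.Agent.Lib.BlockP.Defect.isIntegral_avg hχ b _ ?_
      intro u hu
      obtain ⟨m, rfl⟩ := Subgroup.mem_zpowers_iff.1 hu
      exact hab.symm.zpow_right m
    · refine Cfsg.Agent.Lib.BlockP.Defect.isIntegral_avg hχ b _ ?_
      intro u hu
      obtain ⟨m, rfl⟩ := Subgroup.mem_zpowers_iff.1 hu
      exact (hab.symm.pow_right p).zpow_right m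

section Irr

open Cfsg.Agent.Lib.Blocks.Central Cfsg.Agent.Lib.Char.Ortho Cfsg.Agent.Lib.Char.Basic

theorem one_of_mem_orbit {χ ψ : IrrCharacter G} (h : ψ ∈ orbit (Gam G p) χ) :
    (ψ : G → ℂ) 1 = (χ : G → ℂ) 1 := by
  obtain ⟨k, rfl⟩ := h
  show (χ : G → ℂ) ((1 : G) ^ ex (k : (ZMod (Nat.card G))ˣ)) = _
  rw [one_pow]

/-- The average as an orbit sum of characters. -/
theorem avg_eq_orbit_sum (χ : IrrCharacter G) [Fintype (orbit (Gam G p) χ)] (g : G) :
    avg p (χ : G → ℂ) g = (Nat.card (orbit (Gam G p) χ) : ℂ)⁻¹ *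
      ∑ ψ : orbit (Gam G p) χ, ((ψ : IrrCharacter G) : G → ℂ) g := by
  classical
  unfold avg
  have h1 : ∑ k : Gam G p, (χ : G → ℂ) ((k : (ZMod (Nat.card G))ˣ) • g) =
      ∑ k : Gam G p, (fun ψ : IrrCharacter G => (ψ : G → ℂ) g) (k • χ) :=
    Finset.sum_congr rfl fun k _ => rfl
  have hstab : ((Nat.card (Gam G p) : ℕ) : ℂ) =
      ((Nat.card (orbit (Gam G p) χ) : ℕ) : ℂ) * (Nat.card (stabilizer (Gam G p) χ) : ℂ) := by
    have := card_orbit_mul_card_stabilizer_eq_card_group (Gam G p) χ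
    simp only [← Nat.card_eq_fintype_card] at this
    rw [← this, Nat.cast_mul]
  have hS0 : (Nat.card (stabilizer (Gam G p) χ) : ℂ) ≠ 0 := Nat.cast_ne_zero.2 Nat.card_pos.ne'
  rw [h1, sum_smul_eq χ (fun ψ : IrrCharacter G => (ψ : G → ℂ) g), hstab, mul_inv, mul_assoc,
    ← mul_assoc _ (Nat.card (stabilizer (Gam G p) χ) : ℂ), inv_mul_cancel₀ hS0, one_mul]

/-- The coefficient of the idempotent of the orbit. -/
theorem blockCoeff_orbit (χ : IrrCharacter G) (g : G) :
    blockCoeff (orbit (Gam G p) χ) g =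
      (Nat.card G : ℂ)⁻¹ * ((χ : G → ℂ) 1 * (Nat.card (orbit (Gam G p) χ) : ℂ)) *
        avg p (χ : G → ℂ) g⁻¹ := by
  classical
  haveI := finite_irrCharacter (G := G)
  letI := Fintype.ofFinite (IrrCharacter G)
  letI : Fintype (orbit (Gam G p) χ) := Fintype.ofFinite _
  haveI : Nonempty (orbit (Gam G p) χ) := ⟨⟨χ, mem_orbit_self χ⟩⟩
  have hr : (Nat.card (orbit (Gam G p) χ) : ℂ) ≠ 0 := Nat.cast_ne_zero.2 Nat.card_pos.ne'
  rw [blockCoeff_eq_sum, avg_eq_orbit_sum]
  have h1 : ∑ ψ : IrrCharacter G, (if ψ ∈ orbit (Gam G p) χ then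
      (ψ : G → ℂ) 1 * conj ((ψ : G → ℂ) g) else 0) =
      (χ : G → ℂ) 1 * ∑ ψ : orbit (Gam G p) χ, ((ψ : IrrCharacter G) : G → ℂ) g⁻¹ := by
    rw [Finset.sum_ite, Finset.sum_const_zero, add_zero, Finset.mul_sum]
    have h3 : ∑ ψ ∈ Finset.univ.filter (fun ψ : IrrCharacter G => ψ ∈ orbit (Gam G p) χ),
        (χ : G → ℂ) 1 * (ψ : G → ℂ) g⁻¹ =
        ∑ ψ : orbit (Gam G p) χ, (χ : G → ℂ) 1 * ((ψ : IrrCharacter G) : G → ℂ) g⁻¹ :=
      Finset.sum_subtype _ (by simp) (fun ψ : IrrCharacter G => (χ : G → ℂ) 1 * (ψ : G → ℂ) g⁻¹)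
    rw [← h3]
    refine Finset.sum_congr rfl fun ψ hψ => ?_
    have h2 := (Finset.mem_filter.1 hψ).2
    rw [one_of_mem_orbit h2, char_inv_eq_conj (isCharacter_of_isIrrCharacter ψ.2)]
  rw [h1]
  field_simp

/-- The fundamental identity. -/
theorem sum_classes_eq_one (χ : IrrCharacter G) [Fintype (ConjClasses G)] :
    (Nat.card G : ℂ)⁻¹ * ((χ : G → ℂ) 1 * (Nat.card (orbit (Gam G p) χ) : ℂ)) *
      ∑ C : ConjClasses G, avg p (χ : G → ℂ) (C.out)⁻¹ * centralChar (χ : G → ℂ) C.out = 1 := by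
  classical
  haveI := finite_irrCharacter (G := G)
  letI := Fintype.ofFinite (IrrCharacter G)
  have h1 := omegaHom_idem (orbit (Gam G p) χ) χ
  rw [if_pos (mem_orbit_self χ), omegaHom_eq_sum_classes] at h1
  rw [← h1, Finset.mul_sum]
  refine Finset.sum_congr rfl fun C _ => ?_
  rw [coeff_idem, blockCoeff_orbit]
  ring

/-- First part: the product `r χ(1)` divides `(p - 1) |G|`. -/
theorem mul_dvd (hp : p.Prime) (χ : IrrCharacter G) :
    Nat.card (orbit (Gam G p) χ) * charDegree (χ : G → ℂ) ∣ (p - 1) * Nat.card G := by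
  classical
  haveI := finite_irrCharacter (G := G)
  letI : Fintype (ConjClasses G) := Fintype.ofFinite _
  have hχc := isCharacter_of_isIrrCharacter χ.2
  have h1 := sum_classes_eq_one (p := p) χ
  set X := ∑ C : ConjClasses G, avg p (χ : G → ℂ) (C.out)⁻¹ * centralChar (χ : G → ℂ) C.out with hX
  have hint : IsIntegral ℤ (((p : ℂ) - 1) * X) := by
    rw [hX, Finset.mul_sum]
    refine IsIntegral.sum _ fun C _ => ?_
    rw [← mul_assoc]
    exact (isIntegral_avg_mul hp hχc _).mul (isIntegral_centralChar χ _)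
  set d := charDegree (χ : G → ℂ) with hd
  set r := Nat.card (orbit (Gam G p) χ) with hr
  have hdc : (χ : G → ℂ) 1 = d := (Cfsg.Agent.Lib.Char.Degree.charDegree_natCast hχc).symm
  have hd0 : d ≠ 0 := (Cfsg.Agent.Lib.Char.Degree.charDegree_pos χ.2).ne'
  haveI : Nonempty (orbit (Gam G p) χ) := ⟨⟨χ, mem_orbit_self χ⟩⟩
  have hr0 : r ≠ 0 := Nat.card_pos.ne'
  have hn0 : (Nat.card G : ℂ) ≠ 0 := Nat.cast_ne_zero.2 Nat.card_pos.ne'
  rw [hdc] at h1
  have hd0' : (d : ℂ) ≠ 0 := Nat.cast_ne_zero.2 hd0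
  have hr0' : (r : ℂ) ≠ 0 := Nat.cast_ne_zero.2 hr0
  have hXval : ((p : ℂ) - 1) * X = (((((p - 1 : ℕ) : ℚ) * (Nat.card G : ℚ)) / ((r : ℚ) * d) : ℚ) : ℂ) := by
    have h2 : X = (Nat.card G : ℂ) / ((d : ℂ) * r) := by
      field_simp at h1 ⊢
      linear_combination h1
    rw [h2]
    push_cast [Nat.cast_sub hp.one_lt.le]
    field_simp
  rw [hXval] at hint
  have h3 : IsIntegral ℤ ((((p - 1 : ℕ) : ℚ) * (Nat.card G : ℚ)) / ((r : ℚ) * d) : ℚ) := by
    have := (isIntegral_algebraMap_iff (A := ℚ) (B := ℂ) (R := ℤ)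
      (algebraMap ℚ ℂ).injective (x := ((((p - 1 : ℕ) : ℚ) * (Nat.card G : ℚ)) / ((r : ℚ) * d) : ℚ))).1
    apply this
    simpa using hint
  obtain ⟨z, hz⟩ := IsIntegrallyClosed.isIntegral_iff.mp h3
  have h4 : ((p - 1 : ℕ) : ℤ) * (Nat.card G : ℤ) = (r : ℤ) * d * z := by
    have hrq : (r : ℚ) ≠ 0 := Nat.cast_ne_zero.2 hr0
    have hdq : (d : ℚ) ≠ 0 := Nat.cast_ne_zero.2 hd0
    have h5 : ((p - 1 : ℕ) : ℚ) * (Nat.card G : ℚ) = (r : ℚ) * d * (z : ℚ) := by
      have : (algebraMap ℤ ℚ z) = (z : ℚ) := rfl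
      rw [this] at hz
      rw [hz]
      field_simp
    exact_mod_cast h5
  have h6 : ((r * d : ℕ) : ℤ) ∣ (((p - 1) * Nat.card G : ℕ) : ℤ) := by
    push_cast
    exact ⟨z, by rw [h4]⟩
  exact_mod_cast h6

/-- First part of the theorem. -/
theorem factorization_le (hp : p.Prime) (χ : IrrCharacter G) :
    (Nat.card (orbit (Gam G p) χ) * charDegree (χ : G → ℂ)).factorization p ≤
      (Nat.card G).factorization p := by
  haveI := finite_irrCharacter (G := G)
  have h1 := mul_dvd hp χ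
  have hn0 : Nat.card G ≠ 0 := Nat.card_pos.ne'
  have hp1 : p - 1 ≠ 0 := by
    have := hp.one_lt
    omega
  have h2 := (Nat.factorization_le_iff_dvd (by
    haveI : Nonempty (orbit (Gam G p) χ) := ⟨⟨χ, mem_orbit_self χ⟩⟩
    exact mul_ne_zero Nat.card_pos.ne' (Cfsg.Agent.Lib.Char.Degree.charDegree_pos χ.2).ne')
    (mul_ne_zero hp1 hn0)).2 h1 p
  rw [Nat.factorization_mul hp1 hn0] at h2
  have h3 : (p - 1).factorization p = 0 := by
    apply Nat.factorization_eq_zero_of_not_dvd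
    intro h
    have := Nat.le_of_dvd (by have := hp.one_lt; omega) h
    have := hp.one_lt
    omega
  simpa [h3] using h2

open Cfsg.Agent.Lib.Blocks.Local in
/-- Second part of the theorem. -/
theorem dvd_degree (hp : p.Prime) (χ : IrrCharacter G)
    (h : p ^ (Nat.card G).factorization p ∣
      Nat.card (orbit (Gam G p) χ) * charDegree (χ : G → ℂ)) :
    p ^ (Nat.card G).factorization p ∣ charDegree (χ : G → ℂ) := by
  classical
  obtain ⟨M, hM⟩ := Cfsg.Agent.Lib.BlockH.Basic.exists_isPModular hp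
  haveI := isPrime_of_pModular hM
  haveI := finite_irrCharacter (G := G)
  letI := Fintype.ofFinite (IrrCharacter G)
  letI : Fintype (ConjClasses G) := Fintype.ofFinite _
  haveI : Fact p.Prime := ⟨hp⟩
  have hχc := isCharacter_of_isIrrCharacter χ.2
  set n := Nat.card G with hn
  set a := n.factorization p with ha
  set g' := ordCompl[p] n with hg'
  have hn0 : n ≠ 0 := Nat.card_pos.ne'
  have hnfac : p ^ a * g' = n := Nat.ordProj_mul_ordCompl_eq_self n p
  have hg'p : ¬ p ∣ g' := Nat.not_dvd_ordCompl hp hn0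
  have hg'0 : g' ≠ 0 := by
    intro h0
    rw [h0, mul_zero] at hnfac
    exact hn0 hnfac.symm
  obtain ⟨s, hs⟩ := h
  set O := orbit (Gam G p) χ with hO
  set r := Nat.card O with hr
  set d := charDegree (χ : G → ℂ) with hd
  have hdc : (χ : G → ℂ) 1 = d := (Cfsg.Agent.Lib.Char.Degree.charDegree_natCast hχc).symm
  have hd0 : d ≠ 0 := (Cfsg.Agent.Lib.Char.Degree.charDegree_pos χ.2).ne'
  have hd0' : (d : ℂ) ≠ 0 := Nat.cast_ne_zero.2 hd0
  have hp0' : (p : ℂ) ≠ 0 := Nat.cast_ne_zero.2 hp.ne_zero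
  have hg0' : (g' : ℂ) ≠ 0 := Nat.cast_ne_zero.2 hg'0
  -- the scalar
  have hscal : (Nat.card G : ℂ)⁻¹ * ((χ : G → ℂ) 1 * (r : ℂ)) = (s : ℂ) * (g' : ℂ)⁻¹ := by
    have h1 : (r : ℂ) * d = (p : ℂ) ^ a * s := by exact_mod_cast hs
    have h2 : (Nat.card G : ℂ) = (p : ℂ) ^ a * g' := by
      rw [← hn, ← hnfac]; push_cast; ring
    rw [hdc, h2]
    have hpa : (p : ℂ) ^ a ≠ 0 := pow_ne_zero _ hp0'
    field_simp
    linear_combination h1
  -- local integrality of the average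
  have hp1cast : ((p - 1 : ℕ) : ℂ) = (p : ℂ) - 1 := by
    rw [Nat.cast_sub hp.one_lt.le]; simp
  have hp1not : ¬ p ∣ p - 1 := by
    intro h
    have h1 := Nat.le_of_dvd (by have := hp.one_lt; omega) h
    have := hp.one_lt
    omega
  have hp1ne : (p : ℂ) - 1 ≠ 0 := by
    rw [← hp1cast]
    exact Nat.cast_ne_zero.2 (by have := hp.one_lt; omega)
  have havg : ∀ g : G, MemLocalRing M (avg p (χ : G → ℂ) g) := by
    intro g
    have h1 : avg p (χ : G → ℂ) g =
        ((p - 1 : ℕ) : ℂ)⁻¹ * (((p : ℂ) - 1) * avg p (χ : G → ℂ) g) := by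
      rw [hp1cast]; field_simp
    rw [h1]
    exact memLocalRing_mul (memLocalRing_natCast_inv hM hp1not)
      (memLocalRing_of_isIntegral (isIntegral_avg_mul hp hχc g))
  -- the idempotent of the orbit is local
  have hcoef : ∀ g : G, MemLocalRing M (blockCoeff O g) := by
    intro g
    rw [blockCoeff_orbit, hscal]
    refine memLocalRing_mul (memLocalRing_mul (memLocalRing_natCast s)
      (memLocalRing_natCast_inv hM hg'p)) (havg _)
  have hsub : blockOf M (χ : G → ℂ) ⊆ O :=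
    blockOf_subset_of_forall_memLocalRing hcoef (mem_orbit_self χ)
  have hsup : O ⊆ blockOf M (χ : G → ℂ) := by
    rintro ψ ⟨k, rfl⟩
    refine Cfsg.Agent.Lib.BlockT.Inflate2.sameBlock_of_regular hM fun g hg => ?_
    have h1 : centralChar (χ : G → ℂ) g - centralChar (((k • χ : IrrCharacter G) : G → ℂ)) g = 0 := by
      unfold centralChar
      have h2 : ((k • χ : IrrCharacter G) : G → ℂ) g = (χ : G → ℂ) g := by
        show (χ : G → ℂ) ((k : (ZMod (Nat.card G))ˣ) • g) = _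
        rw [smul_eq_of_regular hp k.2 hg]
      have h3 : ((k • χ : IrrCharacter G) : G → ℂ) 1 = (χ : G → ℂ) 1 :=
        one_of_mem_orbit (mem_orbit χ k)
      rw [h2, h3, sub_self]
    rw [h1]
    exact memLocalIdeal_zero
  have hBO : blockOf M (χ : G → ℂ) = O := Set.Subset.antisymm hsub hsup
  -- vanishing on `p`-singular elements
  have hvan : ∀ x : G, p ∣ orderOf x → avg p (χ : G → ℂ) x = 0 := by
    intro x hx
    have h1 := Cfsg.Agent.Lib.Blocks.Weak.sum_block_eq_zero hM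
      (B := blockOf M (χ : G → ℂ)) ⟨χ, rfl⟩ 1 x⁻¹ (by simp [hp.one_lt.ne']
        ) (by rw [orderOf_inv]; exact hx)
    have h2 := blockCoeff_orbit (p := p) χ x⁻¹
    rw [blockCoeff_eq_sum, inv_inv, ← hO, ← hr, ← hBO, h1, mul_zero, hscal] at h2
    have hs0 : (s : ℂ) ≠ 0 := by
      intro h3
      have h4 : s = 0 := by exact_mod_cast h3
      rw [h4, mul_zero] at hs
      have hr0 : r ≠ 0 := by
        haveI : Nonempty O := ⟨⟨χ, mem_orbit_self χ⟩⟩
        exact Nat.card_pos.ne'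
      exact (mul_ne_zero hr0 hd0) hs
    have h5 : (s : ℂ) * (g' : ℂ)⁻¹ ≠ 0 := mul_ne_zero hs0 (inv_ne_zero hg0')
    exact (mul_eq_zero.1 h2.symm).resolve_left h5
  -- the key congruence
  have hkey : ∀ w u : G, ¬ p ∣ orderOf w → Commute w u → orderOf u = p →
      MemLocalIdeal M ((χ : G → ℂ) w) := by
    intro w u hw hc hu
    letI : Fintype (Subgroup.zpowers u) := Fintype.ofFinite _
    have h1 := avg_formula_prime hp (χ : G → ℂ) hw hc hu
    have hu1 : u ≠ 1 := by
      rintro rfl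
      rw [orderOf_one] at hu
      exact hp.one_lt.ne hu
    have h2 : p ∣ orderOf (w * u) := Cfsg.Agent.Lib.BlockP.Defect.dvd_orderOf_mul hp hw hc (k := 1)
      (by rw [pow_one, ← hu]; exact pow_orderOf_eq_one u) hu1
    rw [hvan _ h2, mul_zero] at h1
    have h3 : (χ : G → ℂ) w = (p : ℂ) * ((Nat.card (Subgroup.zpowers u) : ℂ)⁻¹ *
        ∑ b : Subgroup.zpowers u, (χ : G → ℂ) (w * b)) := by
      linear_combination h1
    rw [h3]
    refine memLocalIdeal_mul_right (p_memLocalIdeal hM) (memLocalRing_of_isIntegral ?_)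
    refine Cfsg.Agent.Lib.BlockP.Defect.isIntegral_avg hχc w _ ?_
    intro v hv
    obtain ⟨m, rfl⟩ := Subgroup.mem_zpowers_iff.1 hv
    exact hc.zpow_right m
  -- the identity
  have h1 := sum_classes_eq_one (p := p) χ
  rw [← hO, ← hr, hscal] at h1
  set X := ∑ C : ConjClasses G, avg p (χ : G → ℂ) (C.out)⁻¹ * centralChar (χ : G → ℂ) C.out with hX
  have hsX : (s : ℂ) * X = g' := by
    field_simp at h1
    linear_combination h1
  have hXnot : ¬ MemLocalIdeal M X := by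
    intro hXm
    have h2 := memLocalIdeal_mul_left (memLocalRing_natCast (M := M) s) hXm
    rw [hsX, natCast_memLocalIdeal_iff hM] at h2
    exact hg'p h2
  obtain ⟨C, -, hC⟩ := exists_notMem_of_sum_notMem _ _ hXnot
  set w := C.out with hw
  have hωlocal : MemLocalRing M (centralChar (χ : G → ℂ) w) :=
    memLocalRing_of_isIntegral (isIntegral_centralChar χ w)
  have hAnot : ¬ MemLocalIdeal M (avg p (χ : G → ℂ) w⁻¹) := fun hm =>
    hC (memLocalIdeal_mul_right hm hωlocal)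
  have hωnot : ¬ MemLocalIdeal M (centralChar (χ : G → ℂ) w) := fun hm =>
    hC (memLocalIdeal_mul_left (havg _) hm)
  have hwreg : ¬ p ∣ orderOf w⁻¹ := by
    intro hsing
    rw [hvan _ hsing] at hAnot
    exact hAnot memLocalIdeal_zero
  rw [avg_of_regular hp _ hwreg] at hAnot
  -- `p` does not divide the centralizer order
  have hC1 : ¬ p ∣ Nat.card (Subgroup.centralizer ({w} : Set G)) := by
    intro hdvd
    obtain ⟨u, hu⟩ := exists_prime_orderOf_dvd_card' p hdvd
    have hcw : Commute w (u : G) :=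
      (Subgroup.mem_centralizer_singleton_iff.1 u.2).symm
    apply hAnot
    exact hkey w⁻¹ (u : G) hwreg hcw.inv_left (by rw [Subgroup.orderOf_coe]; exact hu)
  have hindex : p ^ a ∣ (Subgroup.centralizer ({w} : Set G)).index := by
    have h2 : p ^ a ∣ (Subgroup.centralizer ({w} : Set G)).index *
        Nat.card (Subgroup.centralizer ({w} : Set G)) := by
      rw [Subgroup.index_mul_card, ← hn, ← hnfac]
      exact Dvd.intro _ rfl
    exact (Nat.Coprime.pow_left _ ((hp.coprime_iff_not_dvd).2 hC1)).dvd_of_dvd_mul_right h2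
  by_contra hnot
  obtain ⟨m₁, hm₁⟩ := hindex
  have hb : d.factorization p < a := by
    by_contra hge
    exact hnot ((hp.pow_dvd_iff_le_factorization hd0).2 (not_lt.1 hge))
  set b := d.factorization p with hbdef
  have hdfac : p ^ b * ordCompl[p] d = d := Nat.ordProj_mul_ordCompl_eq_self d p
  set w₁ := ordCompl[p] d with hw₁
  have hw₁p : ¬ p ∣ w₁ := Nat.not_dvd_ordCompl hp hd0
  have hw₁ne : (w₁ : ℂ) ≠ 0 := by
    apply Nat.cast_ne_zero.2
    rintro h0
    rw [h0, mul_zero] at hdfac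
    exact hd0 hdfac.symm
  have hprod : MemLocalIdeal M ((w₁ : ℂ) * centralChar (χ : G → ℂ) w) := by
    have h2 : (w₁ : ℂ) * centralChar (χ : G → ℂ) w =
        (p : ℂ) * (((p : ℂ) ^ (a - b - 1) * m₁) * (χ : G → ℂ) w) := by
      unfold centralChar
      rw [hm₁, hdc]
      have h3 : (d : ℂ) = (p : ℂ) ^ b * w₁ := by
        rw [← hdfac]; push_cast; ring
      have h4 : (p : ℂ) ^ a = (p : ℂ) ^ b * ((p : ℂ) * (p : ℂ) ^ (a - b - 1)) := by
        rw [← pow_succ', ← pow_add]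
        congr 1
        omega
      rw [h3]
      push_cast
      rw [h4]
      have hpb : (p : ℂ) ^ b ≠ 0 := pow_ne_zero _ hp0'
      field_simp
    rw [h2]
    refine memLocalIdeal_mul_right (p_memLocalIdeal hM) ?_
    refine memLocalRing_mul (memLocalRing_mul (memLocalRing_pow (memLocalRing_natCast p) _)
      (memLocalRing_natCast m₁)) ?_
    refine memLocalRing_of_isIntegral ?_
    obtain ⟨d', ρ, hρ⟩ := hχc
    rw [← hρ]
    exact Cfsg.Agent.Lib.Char.Eigen.character_isIntegral ρ w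
  have hw₁not : ¬ MemLocalIdeal M (w₁ : ℂ) := by
    rw [natCast_memLocalIdeal_iff hM]
    exact hw₁p
  exact hωnot (memLocalIdeal_of_mul (memLocalRing_natCast w₁) hw₁not hωlocal hprod)

/-- The set of `p`-conjugates is the orbit. -/
theorem card_conj_eq (hp : p.Prime) (χ : IrrCharacter G) :
    Nat.card {ψ : IrrCharacter G // ∃ σ : ℂ ≃+* ℂ,
      σ (Complex.exp (2 * Real.pi * Complex.I / ((Nat.card G / p ^ (Nat.card G).factorization p) : ℕ))) =
        Complex.exp (2 * Real.pi * Complex.I / ((Nat.card G / p ^ (Nat.card G).factorization p) : ℕ)) ∧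
      (ψ : G → ℂ) = fun g => σ ((χ : G → ℂ) g)} = Nat.card (orbit (Gam G p) χ) := by
  classical
  have hχc := isCharacter_of_isIrrCharacter χ.2
  set n := Nat.card G with hn
  set g' := n / p ^ n.factorization p with hg'
  have hn0 : n ≠ 0 := Nat.card_pos.ne'
  have hnfac : p ^ n.factorization p * g' = n := Nat.ordProj_mul_ordCompl_eq_self n p
  have hg'0 : g' ≠ 0 := by
    intro h0
    rw [h0, mul_zero] at hnfac
    exact hn0 hnfac.symm
  have hg'n : g' ∣ n := Dvd.intro_left _ hnfac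
  set ζ := Complex.exp (2 * Real.pi * Complex.I / (g' : ℕ)) with hζdef
  have hζ : IsPrimitiveRoot ζ g' := Complex.isPrimitiveRoot_exp g' hg'0
  have hζn : ζ ^ n = 1 := by
    obtain ⟨c, hc⟩ := hg'n
    rw [hc, pow_mul, hζ.pow_eq_one, one_pow]
  refine Nat.card_congr (Equiv.subtypeEquivRight fun ψ => ?_)
  constructor
  · rintro ⟨σ, hσ1, hσ2⟩
    set ω := Complex.exp (2 * Real.pi * Complex.I / (n : ℕ)) with hωdef
    have hω : IsPrimitiveRoot ω n := Complex.isPrimitiveRoot_exp n hn0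
    have hσω : IsPrimitiveRoot (σ ω) n := hω.map_of_injective σ.injective
    obtain ⟨k, hkn, hk⟩ := hω.eq_pow_of_pow_eq_one hσω.pow_eq_one
    have hkc : k.Coprime n := by
      apply (hω.pow_iff_coprime (Nat.pos_of_ne_zero hn0) k).1
      rw [hk]
      exact hσω
    have hσk : ∀ z : ℂ, z ^ n = 1 → σ z = z ^ k := by
      intro z hz
      obtain ⟨j, -, rfl⟩ := hω.eq_pow_of_pow_eq_one hz
      rw [map_pow, ← hk, ← pow_mul, ← pow_mul, mul_comm]
    have h1 : k ≡ 1 [MOD g'] := by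
      have h2 : ζ ^ k = ζ := by
        rw [← hσk ζ hζn, hσ1]
      rcases Nat.eq_zero_or_pos k with h0 | h0
      · subst h0
        rw [pow_zero] at h2
        have h3 : g' = 1 := Nat.dvd_one.1 (hζ.dvd_of_pow_eq_one 1 (by rw [pow_one]; exact h2.symm))
        rw [h3]
        exact Nat.modEq_one
      · have h3 : ζ ^ (k - 1) = 1 := by
          have hζ0 : ζ ≠ 0 := hζ.ne_zero hg'0
          have h4 : ζ ^ (k - 1) * ζ = 1 * ζ := by
            rw [← pow_succ, Nat.sub_add_cancel h0, one_mul, h2]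
          exact mul_right_cancel₀ hζ0 h4
        have h4 := hζ.dvd_of_pow_eq_one _ h3
        exact ((Nat.modEq_iff_dvd' h0).2 h4).symm
    let k' : (ZMod n)ˣ := ZMod.unitOfCoprime k hkc
    have hex : ex k' = k := by
      show ((k' : ZMod n)).val = _
      rw [ZMod.coe_unitOfCoprime, ZMod.val_natCast, Nat.mod_eq_of_lt hkn]
    have hk'G : k' ∈ Gam G p := by
      rw [mem_Gam_iff, hex]
      exact h1
    refine ⟨⟨k', hk'G⟩, ?_⟩
    apply Subtype.ext
    funext g
    show (χ : G → ℂ) (g ^ ex k') = (ψ : G → ℂ) g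
    rw [hσ2, hex]
    exact (comp_character_eq (f := (σ : ℂ →+* ℂ)) hσk (dvd_refl _) hχc g).symm
  · rintro ⟨⟨k, hk⟩, rfl⟩
    obtain ⟨f, hf⟩ := exists_ringEquiv_pow n (ex k) hn0 (ex_coprime k)
    refine ⟨f, ?_, ?_⟩
    · rw [hf ζ hζn, ((mem_Gam_iff p k).1 hk |> fun h => pow_eq_pow_mod (ex k) hζ.pow_eq_one)]
      have h1 : ex k % g' = 1 % g' := (mem_Gam_iff p k).1 hk
      rw [h1, ← pow_eq_pow_mod 1 hζ.pow_eq_one, pow_one]
    · funext g
      exact (comp_character_eq (f := (f : ℂ →+* ℂ)) hf (dvd_refl _) hχc g).symm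

end Irr

end Cfsg.Agent.Lib.BlockP.PConj
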