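import Mathlib
import Cfsg.Agent.Lib.Blk89.BlockPow
import Cfsg.Agent.Lib.BlockT.Inflate2
import Cfsg.Agent.Lib.Blocks.Inducing
import Cfsg.Agent.Lib.Blocks.Sections
import Cfsg.Agent.Lib.BlockT.SylowIn
import Cfsg.Agent.Lib.BlockP.Stable

/-!
# Robinson's rank formula for the number of blocks with a normal defect group
-/

set_option autoImplicit false
set_option linter.unusedSectionVars false
set_option linter.style.haveILetI false

namespace Cfsg.Agent.Lib.BlockP.RobinsonRank

open Cfsg MonoidAlgebra Matrix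
open Cfsg.Agent.Lib.Blocks.Local Cfsg.Agent.Lib.Blocks.Central
open Cfsg.Agent.Lib.Blocks.Weak
open Cfsg.Agent.Lib.BlockT.Inflate2 Cfsg.Agent.Lib.BlockT.SylowIn
open Cfsg.Agent.Lib.Blk89.BlockPow
open scoped ComplexConjugate

universe u

/-- The rank of a square matrix is unchanged along a field homomorphism. -/
theorem rank_map_field {K L ι : Type*} [Field K] [Field L] [Fintype ι] [DecidableEq ι]
    (f : K →+* L) (A : Matrix ι ι K) : (A.map f).rank = A.rank := by
  classical
  obtain ⟨V, U, e, hV, hU, h⟩ := Matrix.exists_rank_normal_form A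
  have hV' : IsUnit (V.map f).det := by
    have h0 : (V.map f).det = f V.det := (RingHom.map_det f V).symm
    rw [h0]
    exact ((Matrix.isUnit_iff_isUnit_det _).1 hV).map f
  have hU' : IsUnit (U.map f).det := by
    have h0 : (U.map f).det = f U.det := (RingHom.map_det f U).symm
    rw [h0]
    exact ((Matrix.isUnit_iff_isUnit_det _).1 hU).map f
  have h1 := congrArg (fun X => X.map f) h
  simp only [Matrix.map_mul] at h1
  have h2 : (A.map f).rank = ((V.map f) * A.map f * (U.map f)).rank := by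
    rw [rank_mul_eq_left_of_isUnit_det _ _ hU', rank_mul_eq_right_of_isUnit_det _ _ hV']
  rw [h2, h1]
  have h3 : ((fromBlocks (1 : Matrix (Fin A.rank) (Fin A.rank) K) 0 0 0).submatrix e e).map f
      = (fromBlocks (1 : Matrix (Fin A.rank) (Fin A.rank) L) 0 0 0).submatrix e e := by
    ext i j
    rcases ei : e i with a | a <;> rcases ej : e j with b | b <;>
      simp [submatrix_apply, ei, ej, Matrix.one_apply, apply_ite f]
  rw [h3, rank_submatrix, ← diagonal_one, ← diagonal_zero, fromBlocks_diagonal]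
  classical
  rw [rank_diagonal]
  have : Fintype.card {i : Fin A.rank ⊕ Fin (Fintype.card ι - A.rank) //
      Sum.elim (fun _ => (1 : L)) (fun _ => 0) i ≠ 0} = Fintype.card (Fin A.rank) := by
    refine Fintype.card_congr ⟨fun x => ?_, fun x => ⟨Sum.inl x, by simp⟩, ?_, ?_⟩
    · rcases x with ⟨a | a, h⟩
      · exact a
      · exact absurd (by simp) h
    · rintro ⟨a | a, h⟩
      · rfl
      · exact absurd (by simp) h
    · intro x; rfl
  simpa using this

variable {G : Type u} [Group G] [Fintype G]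

section Coeff

variable [Fintype (IrrCharacter G)]

theorem blockCoeff_singleton (χ : IrrCharacter G) (s : G) :
    blockCoeff ({χ} : Set (IrrCharacter G)) s =
      (Nat.card G : ℂ)⁻¹ * ((χ : G → ℂ) 1 * conj ((χ : G → ℂ) s)) := by
  rw [blockCoeff, finsum_mem_singleton]

theorem coeff_central (z : Subalgebra.center ℂ (GA G)) (s : G) :
    (z : GA G).coeff s = ∑ χ : IrrCharacter G, omegaHom χ z *
      ((Nat.card G : ℂ)⁻¹ * ((χ : G → ℂ) 1 * conj ((χ : G → ℂ) s))) := by
  classical
  have key : z = ∑ χ : IrrCharacter G, (omegaHom χ z) • idem ({χ} : Set (IrrCharacter G)) := by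
    apply omegaHom_injective
    intro ψ
    rw [map_sum]
    simp only [map_smul, smul_eq_mul, omegaHom_idem]
    rw [Finset.sum_eq_single ψ]
    · simp
    · intro χ _ h
      have : ψ ∉ ({χ} : Set (IrrCharacter G)) := by
        simpa using h.symm
      simp [this]
    · simp
  conv_lhs => rw [key]
  rw [AddSubmonoidClass.coe_finsetSum, coeff_sum']
  refine Finset.sum_congr rfl fun χ _ => ?_
  rw [← blockCoeff_singleton]
  rfl

end Coeff

theorem isConj_inv_iff' {a b : G} : IsConj a⁻¹ b⁻¹ ↔ IsConj a b := by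
  constructor
  · intro h
    obtain ⟨c, hc⟩ := isConj_iff.mp h
    refine isConj_iff.mpr ⟨c, ?_⟩
    have := congrArg (·⁻¹) hc
    simpa [mul_assoc] using this
  · intro h
    obtain ⟨c, hc⟩ := isConj_iff.mp h
    refine isConj_iff.mpr ⟨c, ?_⟩
    rw [← hc]
    group

open Classical in
/-- The pair count as a sum of coefficients of a product of class sums. -/
theorem card_pairs (S : Subgroup G) (y z : G) :
    (Nat.card {yz : G × G // yz.1 ∈ (ConjClasses.mk y).carrier ∧
        yz.2 ∈ (ConjClasses.mk z).carrier ∧ yz.2 * yz.1⁻¹ ∈ S} : ℂ)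
      = ∑ s : G, if s ∈ S then
          ((classSum z * classSum y⁻¹ : Subalgebra.center ℂ (GA G)) : GA G).coeff s else 0 := by
  rw [Nat.card_eq_fintype_card, Fintype.card_subtype, Finset.card_filter]
  push_cast
  rw [Fintype.sum_prod_type_right]
  have h1 : ∀ s : G, (if s ∈ S then
      (((classSum z : Subalgebra.center ℂ (GA G)) : GA G) *
        ((classSum y⁻¹ : Subalgebra.center ℂ (GA G)) : GA G)).coeff s else 0)
      = ∑ h : G, (if s ∈ S ∧ IsConj z h ∧ IsConj y (s⁻¹ * h) then (1 : ℂ) else 0) := by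
    intro s
    by_cases hs : s ∈ S
    · rw [if_pos hs, coeff_mul_sum]
      refine Finset.sum_congr rfl fun h _ => ?_
      rw [coeff_classSum, coeff_classSum]
      have e : IsConj y⁻¹ (h⁻¹ * s) ↔ IsConj y (s⁻¹ * h) := by
        have : h⁻¹ * s = (s⁻¹ * h)⁻¹ := by group
        rw [this, isConj_inv_iff']
      simp only [e, hs, true_and]
      by_cases h1 : IsConj z h <;> by_cases h2 : IsConj y (s⁻¹ * h) <;>
        simp only [h1, h2, if_true, if_false, and_true, true_and, and_false, false_and, mul_one,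
          mul_zero, zero_mul]
    · rw [if_neg hs]
      symm
      refine Finset.sum_eq_zero fun h _ => ?_
      rw [if_neg]
      exact fun hh => hs hh.1
  rw [Finset.sum_congr rfl (fun s _ => h1 s)]
  conv_rhs => rw [Finset.sum_comm]
  refine Finset.sum_congr rfl fun h _ => ?_
  -- substitute `a = s⁻¹ h`
  symm
  refine Fintype.sum_equiv ((Equiv.inv G).trans (Equiv.mulRight h)) _ _ fun s => ?_
  have e1 : h * (s⁻¹ * h)⁻¹ = s := by group
  have e2 : ((Equiv.inv G).trans (Equiv.mulRight h)) s = s⁻¹ * h := by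
    simp [Equiv.trans_apply]
  simp only [e2, e1, ConjClasses.mem_carrier_iff_mk_eq, ConjClasses.mk_eq_mk_iff_isConj]
  have e3 : IsConj (s⁻¹ * h) y ↔ IsConj y (s⁻¹ * h) := ⟨IsConj.symm, IsConj.symm⟩
  have e4 : IsConj h z ↔ IsConj z h := ⟨IsConj.symm, IsConj.symm⟩
  simp only [e3, e4]
  by_cases h1 : IsConj z h <;> by_cases h2 : IsConj y (s⁻¹ * h) <;> by_cases hs : s ∈ S <;>
    simp only [h1, h2, hs, if_true, if_false, and_true, true_and, and_false, false_and]

theorem sum_subgroup_eq (H : Subgroup G) [Fintype H] [DecidablePred (· ∈ H)] (f : G → ℂ) :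
    ∑ x : H, f x = ∑ g : G, if g ∈ H then f g else 0 := by
  rw [← Finset.sum_filter]
  exact (Finset.sum_subtype (Finset.univ.filter (· ∈ H)) (by simp) f).symm

section Sums

variable [Fintype (IrrCharacter G)] {D : Subgroup G} [hDn : D.Normal] [Fintype D]

/-- `D` lies in the kernel of `χ`. -/
def Triv (D : Subgroup G) (χ : IrrCharacter G) : Prop := ∀ n : D, (χ : G → ℂ) n = (χ : G → ℂ) 1

theorem sum_D_mul_eq (χ : IrrCharacter G) (x : G) :
    ∑ u : D, (χ : G → ℂ) (u * x) = (∑ u : D, (χ : G → ℂ) u) / (χ : G → ℂ) 1 * (χ : G → ℂ) x := by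
  classical
  have hc := isCentral_sumP (P := D) hDn
  have h1 := lin_central_mul χ.2 hc (single x 1)
  rw [lin_mul_single, lin_single, one_mul] at h1
  have h2 : ∑ h : G, (sumP D).coeff h * (χ : G → ℂ) (h * x) = ∑ u : D, (χ : G → ℂ) (u * x) := by
    rw [sum_subgroup_eq D (fun g => (χ : G → ℂ) (g * x))]
    refine Finset.sum_congr rfl fun g _ => ?_
    simp only [sumP, coeff_ofFun]
    by_cases hg : g ∈ D
    · rw [if_pos hg, if_pos hg, one_mul]
    · rw [if_neg hg, if_neg hg, zero_mul]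
  have h4 : lin (χ : G → ℂ) (sumP D) = ∑ u : D, (χ : G → ℂ) u := by
    rw [lin_apply, sum_subgroup_eq D (fun g => (χ : G → ℂ) g)]
    refine Finset.sum_congr rfl fun g _ => ?_
    simp only [sumP, coeff_ofFun]
    by_cases hg : g ∈ D
    · rw [if_pos hg, if_pos hg, one_mul]
    · rw [if_neg hg, if_neg hg, zero_mul]
  rw [← h2, h1, Cfsg.Agent.Lib.Blocks.Central.omega, h4]

theorem sum_D_of_triv {χ : IrrCharacter G} (hT : Triv D χ) :
    ∑ u : D, (χ : G → ℂ) u = (Nat.card D : ℂ) * (χ : G → ℂ) 1 := by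
  rw [Finset.sum_congr rfl (fun u _ => hT u), Finset.sum_const, Finset.card_univ,
    Nat.card_eq_fintype_card, nsmul_eq_mul]

theorem sum_D_mul_of_triv {χ : IrrCharacter G} (hT : Triv D χ) (x : G) :
    ∑ u : D, (χ : G → ℂ) (u * x) = (Nat.card D : ℂ) * (χ : G → ℂ) x := by
  have h1 := Cfsg.Agent.Lib.Char.Complete.irr_one_ne_zero χ.2
  rw [sum_D_mul_eq, sum_D_of_triv hT]
  field_simp

theorem sum_D_mul_of_not_triv {χ : IrrCharacter G} (hT : ¬ Triv D χ) (x : G) :
    ∑ u : D, (χ : G → ℂ) (u * x) = 0 := by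
  by_contra h
  exact hT (trivial_of_sum_ne_zero hDn x h)

variable {S : Subgroup G} [Fintype S]

theorem sum_S_of_not_triv (hDS : D ≤ S) {χ : IrrCharacter G} (hT : ¬ Triv D χ) :
    ∑ s : S, (χ : G → ℂ) s = 0 := by
  have h1 : ∑ s : S, ∑ u : D, (χ : G → ℂ) (u * s) = 0 :=
    Finset.sum_eq_zero fun s _ => sum_D_mul_of_not_triv hT _
  rw [Finset.sum_comm] at h1
  have h2 : ∀ u : D, ∑ s : S, (χ : G → ℂ) (u * s) = ∑ s : S, (χ : G → ℂ) s := by
    intro u
    exact Fintype.sum_equiv (Equiv.mulLeft (⟨u, hDS u.2⟩ : S)) _ _ fun s => rfl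
  rw [Finset.sum_congr rfl (fun u _ => h2 u), Finset.sum_const, Finset.card_univ, nsmul_eq_mul] at h1
  have h3 : ((Fintype.card D : ℕ) : ℂ) ≠ 0 := Nat.cast_ne_zero.mpr Fintype.card_ne_zero
  exact (mul_eq_zero.mp h1).resolve_left h3

theorem sum_S_of_vanish (hDS : D ≤ S) {χ : IrrCharacter G} (hT : Triv D χ)
    (hv : ∀ s ∈ S, s ∉ D → (χ : G → ℂ) s = 0) :
    ∑ s : S, (χ : G → ℂ) s = (Nat.card D : ℂ) * (χ : G → ℂ) 1 := by
  classical
  rw [← sum_D_of_triv hT, sum_subgroup_eq S (χ : G → ℂ), sum_subgroup_eq D (χ : G → ℂ)]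
  refine Finset.sum_congr rfl fun g _ => ?_
  by_cases hg : g ∈ D
  · rw [if_pos hg, if_pos (hDS hg)]
  · rw [if_neg hg]
    by_cases hg' : g ∈ S
    · rw [if_pos hg', hv g hg' hg]
    · rw [if_neg hg']

end Sums

/-- A `p`-adic integrality criterion for divisibility. -/
theorem pow_dvd_of_memLocalRing {p : ℕ} {M : Ideal AlgInt} (hM : IsPModular p M) (n k : ℕ)
    (h : MemLocalRing M ((n : ℂ) / (p : ℂ) ^ k)) : p ^ k ∣ n := by
  haveI hprime := isPrime_of_pModular hM
  have hp := prime_of_pModular hM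
  by_cases hn : n = 0
  · simp [hn]
  rw [hp.pow_dvd_iff_le_factorization hn]
  by_contra hlt
  push Not at hlt
  obtain ⟨e, he⟩ : ∃ e, k = n.factorization p + (e + 1) :=
    ⟨k - n.factorization p - 1, by omega⟩
  have hnd : ¬ p ∣ n / p ^ n.factorization p := Nat.not_dvd_ordCompl hp hn
  have hne : n = p ^ n.factorization p * (n / p ^ n.factorization p) :=
    (Nat.ordProj_mul_ordCompl_eq_self _ _).symm
  have hpc : (p : ℂ) ≠ 0 := Nat.cast_ne_zero.mpr hp.ne_zero
  set v := n.factorization p with hv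
  set n' := n / p ^ v with hn'
  have hn'c : (n' : ℂ) ≠ 0 := by
    intro h0
    apply hnd
    have : n' = 0 := by exact_mod_cast h0
    rw [this]
    exact dvd_zero _
  have h1 : (p : ℂ)⁻¹ = (n : ℂ) / (p : ℂ) ^ k * ((p : ℂ) ^ e * (n' : ℂ)⁻¹) := by
    rw [he]
    conv_rhs => rw [hne]
    push_cast
    field_simp
    ring
  have h2 : MemLocalRing M ((p : ℂ)⁻¹) := by
    rw [h1]
    exact memLocalRing_mul h (memLocalRing_mul (memLocalRing_pow (memLocalRing_natCast _) _)
      (memLocalRing_natCast_inv hM hnd))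
  have h3 : MemLocalIdeal M ((p : ℂ)⁻¹ * p) := memLocalIdeal_mul_left h2 (p_memLocalIdeal hM)
  rw [inv_mul_cancel₀ hpc] at h3
  exact one_notMemLocalIdeal (M := M) h3

section Terms

variable {p : ℕ} [hpf : Fact p.Prime] {M : Ideal AlgInt} [hMp : M.IsPrime]
  [Fintype (IrrCharacter G)] {D S : Subgroup G} [hDn : D.Normal] [Fintype D] [Fintype S]

/-- The numerical data. -/
structure Nums (p : ℕ) (D S : Subgroup G) (k d g' : ℕ) : Prop where
  cardD : Nat.card D = p ^ d
  cardS : Nat.card S = p ^ (k + d)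
  cardG : Nat.card G = p ^ (k + d) * g'
  hg : ¬ p ∣ g'

theorem Nums.g_ne {k d g' : ℕ} (hn : Nums p D S k d g') : (g' : ℂ) ≠ 0 := by
  intro h0
  apply hn.hg
  have : g' = 0 := by exact_mod_cast h0
  rw [this]
  exact dvd_zero _

theorem Nums.fact {k d g' : ℕ} (hn : Nums p D S k d g') :
    (Nat.card G).factorization p = k + d := by
  have hp := hpf.out
  have hg0 : g' ≠ 0 := by
    rintro rfl
    exact hn.hg (dvd_zero _)
  rw [hn.cardG, Nat.factorization_mul (pow_ne_zero _ hp.ne_zero) hg0]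
  simp [Nat.factorization_eq_zero_of_not_dvd hn.hg, hp.factorization_self]

theorem Nums.index {k d g' : ℕ} (hn : Nums p D S k d g') {y : G}
    (hy : IsSylowIn p D (Subgroup.centralizer ({y} : Set G))) :
    ∃ u : ℕ, (Subgroup.centralizer ({y} : Set G)).index = p ^ k * u ∧ ¬ p ∣ u := by
  have hp := hpf.out
  have h1 := hy.card_eq
  rw [hn.cardD] at h1
  have h2 := Nat.pow_right_injective hp.two_le h1
  have h3 : (Subgroup.centralizer ({y} : Set G)).index.factorization p = k :=
    Cfsg.Agent.Lib.Blocks.Heights.factorization_index_of_factorization_card (by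
      rw [hn.fact, ← h2]; omega)
  refine ⟨(Subgroup.centralizer ({y} : Set G)).index / p ^ k, ?_, ?_⟩
  · conv_rhs => rw [← h3]
    exact (Nat.ordProj_mul_ordCompl_eq_self _ _).symm
  · conv => rw [← h3]
    exact Nat.not_dvd_ordCompl hp (Subgroup.index_ne_zero_of_finite)

/-- The summand of the pair count. -/
noncomputable def tw (p k : ℕ) (S : Subgroup G) [Fintype S] (y z : G) (χ : IrrCharacter G) : ℂ :=
  centralChar (χ : G → ℂ) z * centralChar (χ : G → ℂ) y⁻¹ *
    ((Nat.card G : ℂ)⁻¹ * ((χ : G → ℂ) 1 * conj (∑ s : S, (χ : G → ℂ) s))) / (p : ℂ) ^ k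

open Classical in
/-- The weight of `χ`. -/
noncomputable def delta (p k : ℕ) (D : Subgroup G) (χ : IrrCharacter G) : ℂ :=
  if Triv D χ then
    (Nat.card G : ℂ)⁻¹ * ((χ : G → ℂ) 1 * ((Nat.card D : ℂ) * (χ : G → ℂ) 1)) / (p : ℂ) ^ k
  else 0

theorem card_div_eq (k : ℕ) (y z : G) :
    (Nat.card {yz : G × G // yz.1 ∈ (ConjClasses.mk y).carrier ∧
        yz.2 ∈ (ConjClasses.mk z).carrier ∧ yz.2 * yz.1⁻¹ ∈ S} : ℂ) / (p : ℂ) ^ k
      = ∑ χ : IrrCharacter G, tw p k S y z χ := by
  classical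
  rw [card_pairs]
  have h1 : (∑ s : G, if s ∈ S then
      ((classSum z * classSum y⁻¹ : Subalgebra.center ℂ (GA G)) : GA G).coeff s else 0)
      = ∑ s : S, ((classSum z * classSum y⁻¹ : Subalgebra.center ℂ (GA G)) : GA G).coeff s :=
    (sum_subgroup_eq S _).symm
  rw [h1]
  simp_rw [coeff_central]
  rw [Finset.sum_comm, Finset.sum_div]
  refine Finset.sum_congr rfl fun χ _ => ?_
  rw [tw, map_mul, omegaHom_classSum, omegaHom_classSum, map_sum, ← Finset.mul_sum,
    Finset.mul_sum (a := (χ : G → ℂ) 1), Finset.mul_sum (a := (Nat.card G : ℂ)⁻¹)]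

theorem conj_irr_one (χ : IrrCharacter G) : conj ((χ : G → ℂ) 1) = (χ : G → ℂ) 1 := by
  rw [Cfsg.Agent.Lib.Blocks.Heights.irr_one_eq]
  exact Complex.conj_natCast _

open Classical in
theorem tw_eq_delta {k : ℕ} (y z : G) (χ : IrrCharacter G)
    (hS : ∑ s : S, (χ : G → ℂ) s = if Triv D χ then (Nat.card D : ℂ) * (χ : G → ℂ) 1 else 0) :
    tw p k S y z χ = centralChar (χ : G → ℂ) z * centralChar (χ : G → ℂ) y⁻¹ * delta p k D χ := by
  rw [tw, delta, hS]
  split_ifs with hT
  · rw [map_mul, conj_irr_one, map_natCast]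
    ring
  · simp

theorem tw_memLocalIdeal (hM : IsPModular p M) {k d g' : ℕ} (hn : Nums p D S k d g') {y z : G}
    (hy : IsSylowIn p D (Subgroup.centralizer ({y} : Set G))) (χ : IrrCharacter G)
    (hz : MemLocalIdeal M (centralChar (χ : G → ℂ) z)) : MemLocalIdeal M (tw p k S y z χ) := by
  obtain ⟨u, hu, -⟩ := hn.index hy
  obtain ⟨m, hm⟩ := Cfsg.Agent.Lib.Char.Ortho.exists_nat_classInner
    (Cfsg.Agent.Lib.Char.Basic.isCharacter_restrict S
      (Cfsg.Agent.Lib.Char.Basic.isCharacter_of_isIrrCharacter χ.2))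
    (Cfsg.Agent.Lib.Char.Basic.isCharacter_one (G := S))
  have hp := hpf.out
  have hpc : (p : ℂ) ≠ 0 := Nat.cast_ne_zero.mpr hp.ne_zero
  have hSc : (Nat.card S : ℂ) ≠ 0 := Cfsg.Agent.Lib.Char.Ortho.card_ne_zero_complex
  have hS : ∑ s : S, (χ : G → ℂ) s = (Nat.card S : ℂ) * m := by
    rw [← hm, classInner]
    simp only [map_one, mul_one]
    field_simp
  have h1 := Cfsg.Agent.Lib.Char.Complete.irr_one_ne_zero χ.2
  have hg := hn.g_ne
  have e : tw p k S y z χ = centralChar (χ : G → ℂ) z *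
      (((u : ℂ) * (χ : G → ℂ) y⁻¹ * m) * (g' : ℂ)⁻¹) := by
    have hc : centralChar (χ : G → ℂ) y⁻¹ = ((p ^ k * u : ℕ) : ℂ) * (χ : G → ℂ) y⁻¹ / (χ : G → ℂ) 1 := by
      rw [centralChar, Cfsg.Agent.Lib.BlockP.Stable.centralizer_inv, hu]
    rw [tw, hS, map_mul, map_natCast, map_natCast, hc, hn.cardS, hn.cardG]
    push_cast
    field_simp
  rw [e]
  refine memLocalIdeal_mul_right hz (memLocalRing_mul (memLocalRing_mul (memLocalRing_mul
    (memLocalRing_natCast _) (memLocalRing_of_isIntegral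
      (Cfsg.Agent.Lib.BlockP.Stable.isIntegral_irr χ _))) (memLocalRing_natCast _))
    (memLocalRing_natCast_inv hM hn.hg))

theorem delta_eq {k d g' : ℕ} (hn : Nums p D S k d g') {χ : IrrCharacter G} (hT : Triv D χ) {f : ℕ}
    (hf : charDegree (χ : G → ℂ) = p ^ k * f) :
    delta p k D χ = (f : ℂ) * f * (g' : ℂ)⁻¹ := by
  classical
  have hp := hpf.out
  have hpc : (p : ℂ) ≠ 0 := Nat.cast_ne_zero.mpr hp.ne_zero
  have hg := hn.g_ne
  have h1 : (χ : G → ℂ) 1 = (p : ℂ) ^ k * f := by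
    rw [Cfsg.Agent.Lib.Blocks.Heights.irr_one_eq, hf]
    push_cast
    rfl
  rw [delta, if_pos hT, h1, hn.cardD, hn.cardG]
  push_cast
  field_simp
  ring

theorem map_conj_normal (D : Subgroup G) [hD : D.Normal] (x : G) :
    D.map (MulAut.conj x).toMonoidHom = D := by
  ext a
  constructor
  · rintro ⟨b, hb, rfl⟩
    exact hD.conj_mem b hb x
  · intro ha
    refine ⟨x⁻¹ * a * x, ?_, ?_⟩
    · have := hD.conj_mem a ha x⁻¹
      simpa using this
    · simp [mul_assoc]

theorem centralChar_mem_of_not_defect (hM : IsPModular p M) (hDp : IsPGroup p D) {y : G}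
    (hy : IsSylowIn p D (Subgroup.centralizer ({y} : Set G))) {B : Set (IrrCharacter G)}
    (hB : IsPBlock M B) (hBD : ¬ IsDefectGroup p M B D) {χ : IrrCharacter G} (hχ : χ ∈ B) :
    MemLocalIdeal M (centralChar (χ : G → ℂ) y) := by
  by_contra h
  obtain ⟨D', hD'⟩ := Cfsg.Agent.Lib.Blocks.Defect2.exists_isDefectGroup (p := p) hB
  obtain ⟨y', hy', hs'⟩ := Cfsg.Agent.Lib.Blocks.Defect2.isDefectGroup_isSylowIn hD'
  obtain ⟨x, hx⟩ := Cfsg.Agent.Lib.Blocks.Defect.minmax_le hM hB hχ h hy'.2.1 hy hs'.isPGroup hs'.le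
  rw [map_conj_normal] at hx
  have h2 := Cfsg.Agent.Lib.Blocks.Inducing.normal_le_defect hM hB hD' hDn hDp
  exact hBD ((le_antisymm hx h2) ▸ hD')

open Classical in
theorem sum_S_block (hM : IsPModular p M) (hDS : D ≤ S) (hSp : IsPGroup p S)
    {B : Set (IrrCharacter G)} (hB : IsPBlock M B) (hBD : IsDefectGroup p M B D)
    {χ : IrrCharacter G} (hχ : χ ∈ B) :
    ∑ s : S, (χ : G → ℂ) s = if Triv D χ then (Nat.card D : ℂ) * (χ : G → ℂ) 1 else 0 := by
  have hp := hpf.out
  by_cases hT : Triv D χ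
  · rw [if_pos hT]
    refine sum_S_of_vanish hDS hT fun s hs hsD => ?_
    have hoS : ∃ j, orderOf s = p ^ j := by
      obtain ⟨j, hj⟩ := hSp ⟨s, hs⟩
      have h1 : s ^ p ^ j = 1 := by
        have := congrArg Subtype.val hj
        simpa using this
      obtain ⟨e, -, he⟩ := (Nat.dvd_prime_pow hp).mp (orderOf_dvd_of_pow_eq_one h1)
      exact ⟨e, he⟩
    have hpp : IsPPart p s s := ⟨1, by simp, Commute.one_right _, hoS, by
      simpa using hp.one_lt.ne'⟩
    refine Cfsg.Agent.Lib.Blocks.Sections.char_eq_zero_of_forall_notMem_defect hM χ hpp fun D' hD' => ?_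
    rw [← isPBlock_eq_blockOf hB hχ] at hD'
    obtain ⟨x, rfl⟩ := Cfsg.Agent.Lib.Blocks.Defect2.isDefectGroup_exists_conj_eq hM hB hBD hD'
    rwa [map_conj_normal]
  · rw [if_neg hT]
    exact sum_S_of_not_triv hDS hT

theorem pow_dvd_charDegree (hM : IsPModular p M) {k d g' : ℕ} (hn : Nums p D S k d g')
    {B : Set (IrrCharacter G)} (hB : IsPBlock M B) (hBD : IsDefectGroup p M B D)
    {χ : IrrCharacter G} (hχ : χ ∈ B) : ∃ f : ℕ, charDegree (χ : G → ℂ) = p ^ k * f := by
  have hp := hpf.out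
  have h1 := Cfsg.Agent.Lib.Blocks.Inducing.card_eq_pow_blockDefect hM hB hBD
  rw [hn.cardD] at h1
  have h2 := Nat.pow_right_injective hp.two_le h1
  rw [blockDefect, hn.fact] at h2
  have h3 : sInf ((fun χ : IrrCharacter G => (charDegree (χ : G → ℂ)).factorization p) '' B) ≤
      (charDegree (χ : G → ℂ)).factorization p := Nat.sInf_le ⟨χ, hχ, rfl⟩
  have h4 : k ≤ (charDegree (χ : G → ℂ)).factorization p := by omega
  have hdeg := Cfsg.Agent.Lib.Blocks.Heights.charDegree_ne_zero_irr χ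
  obtain ⟨f, hf⟩ := (hp.pow_dvd_iff_le_factorization hdeg).mpr h4
  exact ⟨f, hf⟩

open Classical in
theorem blockCoeff_eq (hM : IsPModular p M) (hDp : IsPGroup p D) (k : ℕ)
    {B : Set (IrrCharacter G)} (hB : IsPBlock M B) {y : G} (hyr : ¬ p ∣ orderOf y)
    (hyc : ∀ d ∈ D, Commute d y) :
    blockCoeff B y = ∑ χ : IrrCharacter G, if χ ∈ B then
      ((p : ℂ) ^ k / ((Subgroup.centralizer ({y} : Set G)).index : ℂ)) *
        (delta p k D χ * centralChar (χ : G → ℂ) y⁻¹) else 0 := by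
  have hp := hpf.out
  have hpc : (p : ℂ) ≠ 0 := Nat.cast_ne_zero.mpr hp.ne_zero
  have hind : ((Subgroup.centralizer ({y} : Set G)).index : ℂ) ≠ 0 :=
    Nat.cast_ne_zero.mpr Subgroup.index_ne_zero_of_finite
  have h1 : blockCoeff B y = ∑ u : D, blockCoeff B ((u : G) * y) := by
    rw [Finset.sum_eq_single (1 : D)]
    · simp
    · intro u _ hu
      refine blockCoeff_eq_zero hM hB ?_
      obtain ⟨j, hj⟩ := hDp u
      refine dvd_orderOf_mul hp (hyc u u.2) (k := j) ?_ ?_ hyr
      · have := congrArg Subtype.val hj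
        simpa using this
      · intro h
        exact hu (Subtype.ext h)
    · simp
  rw [h1]
  simp_rw [blockCoeff_eq_sum]
  rw [← Finset.mul_sum, Finset.sum_comm, Finset.mul_sum]
  refine Finset.sum_congr rfl fun χ _ => ?_
  by_cases hχ : χ ∈ B
  · simp only [if_pos hχ]
    rw [← Finset.mul_sum, ← map_sum]
    have h2 := Cfsg.Agent.Lib.Char.Complete.irr_one_ne_zero χ.2
    have h3 : conj ((χ : G → ℂ) y) = (χ : G → ℂ) y⁻¹ :=
      (Cfsg.Agent.Lib.Char.Ortho.char_inv_eq_conj
        (Cfsg.Agent.Lib.Char.Basic.isCharacter_of_isIrrCharacter χ.2) y).symm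
    by_cases hT : Triv D χ
    · rw [sum_D_mul_of_triv hT, map_mul, map_natCast, h3, delta, if_pos hT, centralChar,
        Cfsg.Agent.Lib.BlockP.Stable.centralizer_inv]
      field_simp
    · rw [sum_D_mul_of_not_triv hT, map_zero, delta, if_neg hT]
      simp
  · simp [if_neg hχ]

end Terms

section Final

variable {p : ℕ} [hpf : Fact p.Prime] {M : Ideal AlgInt} [hMp : M.IsPrime]
  [Fintype (IrrCharacter G)] {D S : Subgroup G} [hDn : D.Normal] [Fintype D] [Fintype S]

/-- Local evaluation of the terms. -/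
theorem local_tw (hM : IsPModular p M) (hDp : IsPGroup p D) (hDS : D ≤ S) (hSp : IsPGroup p S)
    {k d g' : ℕ} (hn : Nums p D S k d g') {y z : G}
    (hy : IsSylowIn p D (Subgroup.centralizer ({y} : Set G)))
    (hz : IsSylowIn p D (Subgroup.centralizer ({z} : Set G))) (χ : IrrCharacter G) :
    MemLocalRing M (tw p k S y z χ) ∧
      (∀ B : Set (IrrCharacter G), IsPBlock M B → IsDefectGroup p M B D → χ ∈ B →
        MemLocalRing M (delta p k D χ) ∧
          tw p k S y z χ = centralChar (χ : G → ℂ) z * centralChar (χ : G → ℂ) y⁻¹ * delta p k D χ) ∧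
      (¬ IsDefectGroup p M (blockOf M (χ : G → ℂ)) D → MemLocalIdeal M (tw p k S y z χ)) := by
  classical
  have hdelta : ∀ B : Set (IrrCharacter G), IsPBlock M B → IsDefectGroup p M B D → χ ∈ B →
      MemLocalRing M (delta p k D χ) := by
    intro B hB hBD hχ
    by_cases hT : Triv D χ
    · obtain ⟨f, hf⟩ := pow_dvd_charDegree hM hn hB hBD hχ
      rw [delta_eq hn hT hf]
      exact memLocalRing_mul (memLocalRing_mul (memLocalRing_natCast _) (memLocalRing_natCast _))
        (memLocalRing_natCast_inv hM hn.hg)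
    · rw [delta, if_neg hT]
      exact memLocalRing_zero
  have h2 : ∀ B : Set (IrrCharacter G), IsPBlock M B → IsDefectGroup p M B D → χ ∈ B →
      tw p k S y z χ = centralChar (χ : G → ℂ) z * centralChar (χ : G → ℂ) y⁻¹ * delta p k D χ :=
    fun B hB hBD hχ => tw_eq_delta y z χ (sum_S_block hM hDS hSp hB hBD hχ)
  have h3 : ¬ IsDefectGroup p M (blockOf M (χ : G → ℂ)) D → MemLocalIdeal M (tw p k S y z χ) := by
    intro h
    exact tw_memLocalIdeal hM hn hy χ (centralChar_mem_of_not_defect hM hDp hz ⟨χ, rfl⟩ h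
      (mem_blockOf_self χ))
  refine ⟨?_, fun B hB hBD hχ => ⟨hdelta B hB hBD hχ, h2 B hB hBD hχ⟩, h3⟩
  by_cases hd : IsDefectGroup p M (blockOf M (χ : G → ℂ)) D
  · rw [h2 _ ⟨χ, rfl⟩ hd (mem_blockOf_self χ)]
    exact memLocalRing_mul (memLocalRing_mul
      (memLocalRing_of_isIntegral (isIntegral_centralChar χ _))
      (memLocalRing_of_isIntegral (isIntegral_centralChar χ _)))
      (hdelta _ ⟨χ, rfl⟩ hd (mem_blockOf_self χ))
  · exact memLocalRing_of_memLocalIdeal (h3 hd)

/-- The vanishing of the terms of the central idempotent outside the classes of defect `D`. -/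
theorem coeff_or_char_mem (hM : IsPModular p M) (hDp : IsPGroup p D)
    {B B' : Set (IrrCharacter G)} (hB : IsPBlock M B) (hB' : IsPBlock M B')
    (hBD : IsDefectGroup p M B D) (hBD' : IsDefectGroup p M B' D) {χ' : IrrCharacter G}
    (hχ' : χ' ∈ B') {g : G} (h1 : ¬ MemLocalIdeal M (blockCoeff B g))
    (h2 : ¬ MemLocalIdeal M (centralChar (χ' : G → ℂ) g)) :
    ¬ p ∣ orderOf g ∧ IsSylowIn p D (Subgroup.centralizer ({g} : Set G)) := by
  constructor
  · intro hd
    rw [blockCoeff_eq_zero hM hB hd] at h1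
    exact h1 memLocalIdeal_zero
  · obtain ⟨Qs⟩ : Nonempty (Sylow p (Subgroup.centralizer ({g} : Set G))) := inferInstance
    have hQ : IsSylowIn p ((Qs : Subgroup (Subgroup.centralizer ({g} : Set G))).map
        (Subgroup.centralizer ({g} : Set G)).subtype) (Subgroup.centralizer ({g} : Set G)) :=
      ⟨Qs, rfl⟩
    set Q := (Qs : Subgroup (Subgroup.centralizer ({g} : Set G))).map
        (Subgroup.centralizer ({g} : Set G)).subtype with hQdef
    obtain ⟨y', hy', hs'⟩ := Cfsg.Agent.Lib.Blocks.Defect2.isDefectGroup_isSylowIn hBD'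
    obtain ⟨x, hx⟩ := Cfsg.Agent.Lib.Blocks.Defect.minmax_le hM hB' hχ' h2 hy'.2.1 hQ hDp hs'.le
    obtain ⟨χ₀, hχ₀⟩ := isPBlock_nonempty hB
    obtain ⟨y₀, hy₀, hs₀⟩ := Cfsg.Agent.Lib.Blocks.Defect2.isDefectGroup_isSylowIn hBD
    obtain ⟨x', hx'⟩ := Cfsg.Agent.Lib.Blocks.Defect.minmax_le hM hB hχ₀ (hy₀.2.2 χ₀ hχ₀) h1 hs₀
      hQ.isPGroup hQ.le
    rw [map_conj_normal] at hx'
    have hcard : Nat.card D ≤ Nat.card Q := by
      have := Subgroup.card_le_of_le hx
      rwa [card_conj_eq] at this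
    have hQD : Q = D := Subgroup.eq_of_le_of_card_ge hx' hcard
    exact hQD ▸ hQ

/-- The blocks with defect group `D`. -/
abbrev BB (p : ℕ) (M : Ideal AlgInt) (D : Subgroup G) :=
  {B : Set (IrrCharacter G) // IsPBlock M B ∧ IsDefectGroup p M B D}

/-- A member of a block. -/
noncomputable def rep (B : BB p M D) : IrrCharacter G := (isPBlock_nonempty B.2.1).some

theorem rep_mem (B : BB p M D) : rep B ∈ B.1 := (isPBlock_nonempty B.2.1).some_mem

theorem BB_uniq {B B' : BB p M D} {χ : IrrCharacter G} (h1 : χ ∈ B.1) (h2 : χ ∈ B'.1) : B = B' := by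
  apply Subtype.ext
  rw [isPBlock_eq_blockOf B.2.1 h1, isPBlock_eq_blockOf B'.2.1 h2]

theorem r_same (B : BB p M D) {χ : IrrCharacter G} (hχ : χ ∈ B.1) (g : G) :
    r M (centralChar (χ : G → ℂ) g) = r M (centralChar ((rep B : IrrCharacter G) : G → ℂ) g) := by
  have h1 : rep B ∈ blockOf M (χ : G → ℂ) := by
    rw [← isPBlock_eq_blockOf B.2.1 hχ]
    exact rep_mem B
  exact r_eq_of_sub (memLocalRing_of_isIntegral (isIntegral_centralChar χ g))
    (memLocalRing_of_isIntegral (isIntegral_centralChar _ g)) (h1 g)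

open Classical in
/-- The sum of the weights over a block. -/
noncomputable def DeltaB (p k : ℕ) (M : Ideal AlgInt) [M.IsPrime] (D : Subgroup G)
    (B : Set (IrrCharacter G)) : Res M :=
  ∑ χ : IrrCharacter G, if χ ∈ B then r M (delta p k D χ) else 0

open Classical in
theorem r_tw (hM : IsPModular p M) (hDp : IsPGroup p D) (hDS : D ≤ S) (hSp : IsPGroup p S)
    {k d g' : ℕ} (hn : Nums p D S k d g') [Fintype (BB p M D)] {y z : G}
    (hy : IsSylowIn p D (Subgroup.centralizer ({y} : Set G)))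
    (hz : IsSylowIn p D (Subgroup.centralizer ({z} : Set G))) (χ : IrrCharacter G) :
    r M (tw p k S y z χ) = ∑ B : BB p M D, if χ ∈ B.1 then
      r M (delta p k D χ) * (r M (centralChar ((rep B : IrrCharacter G) : G → ℂ) y⁻¹) *
        r M (centralChar ((rep B : IrrCharacter G) : G → ℂ) z)) else 0 := by
  have hloc := local_tw (M := M) hM hDp hDS hSp hn hy hz χ
  by_cases hχ : ∃ B : BB p M D, χ ∈ B.1
  · obtain ⟨B, hB⟩ := hχ
    rw [Finset.sum_eq_single B]
    · rw [if_pos hB]
      obtain ⟨hδ, he⟩ := hloc.2.1 B.1 B.2.1 B.2.2 hB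
      rw [he, r_mul (memLocalRing_mul
        (memLocalRing_of_isIntegral (isIntegral_centralChar χ _))
        (memLocalRing_of_isIntegral (isIntegral_centralChar χ _))) hδ,
        r_mul (memLocalRing_of_isIntegral (isIntegral_centralChar χ _))
        (memLocalRing_of_isIntegral (isIntegral_centralChar χ _)), r_same B hB, r_same B hB]
      ring
    · intro B' _ hne
      rw [if_neg]
      intro h
      exact hne (BB_uniq h hB)
    · intro h
      exact absurd (Finset.mem_univ _) h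
  · rw [Finset.sum_eq_zero]
    · refine (r_eq_zero_iff hloc.1).mpr (hloc.2.2 ?_)
      intro hd
      exact hχ ⟨⟨_, ⟨χ, rfl⟩, hd⟩, mem_blockOf_self χ⟩
    · intro B _
      rw [if_neg]
      exact fun h => hχ ⟨B, h⟩

open Classical in
theorem r_sum_tw (hM : IsPModular p M) (hDp : IsPGroup p D) (hDS : D ≤ S) (hSp : IsPGroup p S)
    {k d g' : ℕ} (hn : Nums p D S k d g') [Fintype (BB p M D)] {y z : G}
    (hy : IsSylowIn p D (Subgroup.centralizer ({y} : Set G)))
    (hz : IsSylowIn p D (Subgroup.centralizer ({z} : Set G))) :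
    r M (∑ χ : IrrCharacter G, tw p k S y z χ) = ∑ B : BB p M D,
      r M (centralChar ((rep B : IrrCharacter G) : G → ℂ) y⁻¹) * DeltaB p k M D B.1 *
        r M (centralChar ((rep B : IrrCharacter G) : G → ℂ) z) := by
  rw [r_sum _ _ fun χ _ => (local_tw (M := M) hM hDp hDS hSp hn hy hz χ).1,
    Finset.sum_congr rfl fun χ _ => r_tw hM hDp hDS hSp hn hy hz χ, Finset.sum_comm]
  refine Finset.sum_congr rfl fun B _ => ?_
  have h3 : ∀ χ : IrrCharacter G, (if χ ∈ B.1 then r M (delta p k D χ) *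
      (r M (centralChar ((rep B : IrrCharacter G) : G → ℂ) y⁻¹) *
        r M (centralChar ((rep B : IrrCharacter G) : G → ℂ) z)) else 0)
      = (if χ ∈ B.1 then r M (delta p k D χ) else 0) *
        (r M (centralChar ((rep B : IrrCharacter G) : G → ℂ) y⁻¹) *
        r M (centralChar ((rep B : IrrCharacter G) : G → ℂ) z)) := by
    intro χ
    split_ifs
    · rfl
    · simp
  rw [Finset.sum_congr rfl fun χ _ => h3 χ, ← Finset.sum_mul, DeltaB]
  ring

open Classical in
/-- Duality between coefficients of idempotents and central characters. -/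
theorem dual_sum (hM : IsPModular p M) (hDp : IsPGroup p D) {ι : Type*} [Fintype ι]
    (K : ι → ConjClasses G) (hKinj : Function.Injective K) (y : ι → G)
    (hKy : ∀ i, K i = ConjClasses.mk (y i))
    (hmem : ∀ g : G, ¬ p ∣ orderOf g → IsSylowIn p D (Subgroup.centralizer ({g} : Set G)) →
      ∃ i, K i = ConjClasses.mk g) (B B' : BB p M D) :
    ∑ i, r M (blockCoeff B.1 (y i)) *
      r M (centralChar ((rep B' : IrrCharacter G) : G → ℂ) (y i)) = if B = B' then 1 else 0 := by
  letI : Fintype (ConjClasses G) := Fintype.ofFinite _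
  have h1 := omegaHom_idem B.1 (rep B')
  rw [omegaHom_eq_sum_classes] at h1
  have hlocal : ∀ C : ConjClasses G, MemLocalRing M (blockCoeff B.1 C.out) ∧
      MemLocalRing M (centralChar ((rep B' : IrrCharacter G) : G → ℂ) C.out) := fun C =>
    ⟨memLocalRing_blockCoeff B.2.1 _, memLocalRing_of_isIntegral (isIntegral_centralChar _ _)⟩
  have h2 : r M (∑ C : ConjClasses G, blockCoeff B.1 C.out *
      centralChar ((rep B' : IrrCharacter G) : G → ℂ) C.out) =
      ∑ C : ConjClasses G, r M (blockCoeff B.1 C.out) *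
        r M (centralChar ((rep B' : IrrCharacter G) : G → ℂ) C.out) := by
    rw [r_sum _ _ fun C _ => memLocalRing_mul (hlocal C).1 (hlocal C).2]
    exact Finset.sum_congr rfl fun C _ => r_mul (hlocal C).1 (hlocal C).2
  have h3 : ∑ i, r M (blockCoeff B.1 (y i)) *
      r M (centralChar ((rep B' : IrrCharacter G) : G → ℂ) (y i)) =
      ∑ C : ConjClasses G, r M (blockCoeff B.1 C.out) *
        r M (centralChar ((rep B' : IrrCharacter G) : G → ℂ) C.out) := by
    refine Fintype.sum_of_injective K hKinj _ _ ?_ ?_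
    · intro C hC
      by_contra hne
      have h4 : r M (blockCoeff B.1 C.out) ≠ 0 := left_ne_zero_of_mul hne
      have h5 : r M (centralChar ((rep B' : IrrCharacter G) : G → ℂ) C.out) ≠ 0 :=
        right_ne_zero_of_mul hne
      have h6 : ¬ MemLocalIdeal M (blockCoeff B.1 C.out) := fun h =>
        h4 ((r_eq_zero_iff (hlocal C).1).mpr h)
      have h7 : ¬ MemLocalIdeal M (centralChar ((rep B' : IrrCharacter G) : G → ℂ) C.out) := fun h =>
        h5 ((r_eq_zero_iff (hlocal C).2).mpr h)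
      obtain ⟨h8, h9⟩ := coeff_or_char_mem hM hDp B.2.1 B'.2.1 B.2.2 B'.2.2 (rep_mem B') h6 h7
      obtain ⟨i, hi⟩ := hmem _ h8 h9
      apply hC
      exact ⟨i, by rw [hi, out_isConj]⟩
    · intro i
      have hc : IsConj (K i).out (y i) := by
        rw [hKy i]
        exact isConj_out _
      rw [Cfsg.Agent.Lib.BlockP.Stable.blockCoeff_of_isConj B.1 hc,
        Cfsg.Agent.Lib.BlockP.Stable.centralChar_of_isConj
          (Cfsg.Agent.Lib.Char.Basic.isClassFunction_of_isIrrCharacter (rep B').2) hc]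
  rw [h3, ← h2]
  have h10 : ∑ C : ConjClasses G, blockCoeff B.1 C.out *
      centralChar ((rep B' : IrrCharacter G) : G → ℂ) C.out = if rep B' ∈ B.1 then 1 else 0 := h1
  rw [h10]
  by_cases hBB : B = B'
  · subst hBB
    rw [if_pos (rep_mem B), if_pos rfl, r_one]
  · rw [if_neg hBB, if_neg (fun h => hBB (BB_uniq h (rep_mem B'))), r_zero]

open Classical in
theorem r_blockCoeff (hM : IsPModular p M) (hDp : IsPGroup p D) (hDS : D ≤ S) (hSp : IsPGroup p S)
    {k d g' : ℕ} (hn : Nums p D S k d g') {y : G} (hyr : ¬ p ∣ orderOf y)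
    (hy : IsSylowIn p D (Subgroup.centralizer ({y} : Set G))) (B : BB p M D) :
    r M (blockCoeff B.1 y) =
      r M ((p : ℂ) ^ k / ((Subgroup.centralizer ({y} : Set G)).index : ℂ)) * DeltaB p k M D B.1 *
        r M (centralChar ((rep B : IrrCharacter G) : G → ℂ) y⁻¹) := by
  obtain ⟨u, hu, hu'⟩ := hn.index hy
  have hp := hpf.out
  have hpc : (p : ℂ) ≠ 0 := Nat.cast_ne_zero.mpr hp.ne_zero
  have huc : (u : ℂ) ≠ 0 := by
    intro h0
    apply hu'
    have : u = 0 := by exact_mod_cast h0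
    rw [this]
    exact dvd_zero _
  have hl : MemLocalRing M ((p : ℂ) ^ k / ((Subgroup.centralizer ({y} : Set G)).index : ℂ)) := by
    have : (p : ℂ) ^ k / ((Subgroup.centralizer ({y} : Set G)).index : ℂ) = (u : ℂ)⁻¹ := by
      rw [hu]
      push_cast
      field_simp
    rw [this]
    exact memLocalRing_natCast_inv hM hu'
  have hyc : ∀ d ∈ D, Commute d y := by
    intro d hd
    have := hy.le hd
    rw [Subgroup.mem_centralizer_singleton_iff] at this
    exact this
  rw [blockCoeff_eq hM hDp k B.2.1 hyr hyc]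
  have hloc : ∀ χ : IrrCharacter G, χ ∈ B.1 → MemLocalRing M (delta p k D χ) := fun χ hχ =>
    ((local_tw (M := M) hM hDp hDS hSp hn hy hy χ).2.1 B.1 B.2.1 B.2.2 hχ).1
  rw [r_sum]
  · simp only [DeltaB, Finset.mul_sum, Finset.sum_mul]
    refine Finset.sum_congr rfl fun χ _ => ?_
    by_cases hχ : χ ∈ B.1
    · rw [if_pos hχ, if_pos hχ, r_mul hl (memLocalRing_mul (hloc χ hχ)
        (memLocalRing_of_isIntegral (isIntegral_centralChar χ _))),
        r_mul (hloc χ hχ) (memLocalRing_of_isIntegral (isIntegral_centralChar χ _)),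
        r_same B hχ]
      ring
    · rw [if_neg hχ, if_neg hχ, r_zero]
      ring
  · intro χ _
    by_cases hχ : χ ∈ B.1
    · rw [if_pos hχ]
      exact memLocalRing_mul hl (memLocalRing_mul (hloc χ hχ)
        (memLocalRing_of_isIntegral (isIntegral_centralChar χ _)))
    · rw [if_neg hχ]
      exact memLocalRing_zero

end Final

/-- The matrix part of the argument. -/
theorem rank_eq_card_of_factorization {F ι κ : Type*} [Field F] [Fintype ι] [DecidableEq ι]
    [Fintype κ] [DecidableEq κ] (A : Matrix ι ι F) (a : ι → κ → F) (b : κ → ι → F)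
    (c1 : κ → ι → F) (c2 : ι → κ → F) (Δ : κ → F)
    (hA : ∀ i j, A i j = ∑ B, a i B * Δ B * b B j)
    (h1 : ∀ B B', ∑ i, c1 B i * a i B' = if B = B' then 1 else 0)
    (h2 : ∀ B B', ∑ i, b B i * c2 i B' = if B = B' then 1 else 0)
    (hΔ : ∀ B, Δ B ≠ 0) : A.rank = Fintype.card κ := by
  classical
  let X : Matrix ι κ F := Matrix.of a
  let Y : Matrix κ ι F := Matrix.of b
  let C1 : Matrix κ ι F := Matrix.of c1
  let C2 : Matrix ι κ F := Matrix.of c2
  have hAe : A = X * Matrix.diagonal Δ * Y := by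
    ext i j
    rw [hA, Matrix.mul_apply]
    refine Finset.sum_congr rfl fun B _ => ?_
    rw [Matrix.mul_diagonal]
    rfl
  have hC1X : C1 * X = 1 := by
    ext B B'
    rw [Matrix.mul_apply, Matrix.one_apply]
    exact h1 B B'
  have hYC2 : Y * C2 = 1 := by
    ext B B'
    rw [Matrix.mul_apply, Matrix.one_apply]
    exact h2 B B'
  apply le_antisymm
  · rw [hAe]
    exact (Matrix.rank_mul_le_left _ _).trans (Matrix.rank_le_card_width _)
  · have h3 : C1 * A * C2 = Matrix.diagonal Δ := by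
      rw [hAe]
      calc C1 * (X * Matrix.diagonal Δ * Y) * C2
          = (C1 * X) * Matrix.diagonal Δ * (Y * C2) := by
            simp only [Matrix.mul_assoc]
        _ = _ := by rw [hC1X, hYC2, Matrix.one_mul, Matrix.mul_one]
    have h4 : (Matrix.diagonal Δ).rank = Fintype.card κ := by
      rw [Matrix.rank_diagonal]
      exact Fintype.card_congr (Equiv.subtypeUnivEquiv hΔ)
    rw [← h4, ← h3]
    exact (Matrix.rank_mul_le_left _ _).trans (Matrix.rank_mul_le_right _ _)

end Cfsg.Agent.Lib.BlockP.RobinsonRank
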